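import Cfsg.Agent.Blocks.FpfExc.Dual
import Cfsg.Agent.Transfer.Fusion
import Cfsg.Agent.Blocks.Section
import Cfsg.Agent.ZStar.Second
import Cfsg.Agent.S4720
import Cfsg.Agent.S0947
import Cfsg.Agent.Exceptional.LinearFamily

/-!
# The principal block for an abelian Sylow subgroup whose normalizer quotient acts without fixed points

Values on sections, fusion, and the Gram matrix of the multiplicities of linear characters in restrictions.
-/

set_option autoImplicit false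
set_option linter.style.haveILetI false
set_option linter.unusedSectionVars false

namespace CfsgLib.Blocks.FpfExc

open Cfsg CfsgLib CfsgLib.CharBasics CfsgLib.Blocks
open scoped ComplexConjugate

variable {G : Type*} [Group G] [Finite G] {p : ℕ} [Fact p.Prime] {M : Ideal AlgInt} {P : Sylow p G}

/-- The normalizer. -/
abbrev Nm (P : Sylow p G) : Subgroup G := Subgroup.normalizer ((P : Subgroup G) : Set G)

/-- The centralizer. -/
abbrev Cm (P : Sylow p G) : Subgroup G := Subgroup.centralizer ((P : Subgroup G) : Set G)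

/-- Standing hypotheses. -/
structure Setup (M : Ideal AlgInt) (P : Sylow p G) : Prop where
  hM : IsPModular p M
  nontriv : Nat.card P ≠ 1
  comm : ∀ a b : (P : Subgroup G), a * b = b * a
  fpf : ∀ y : G, y ∈ (P : Subgroup G) → y ≠ 1 → Subgroup.centralizer ({y} : Set G) ⊓ Nm P = Cm P

variable (D : Setup M P)
include D

theorem Setup.commG {a b : G} (ha : a ∈ (P : Subgroup G)) (hb : b ∈ (P : Subgroup G)) : a * b = b * a :=
  congrArg Subtype.val (D.comm ⟨a, ha⟩ ⟨b, hb⟩)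

theorem Setup.le_cm : (P : Subgroup G) ≤ Cm P := fun _ hy =>
  Subgroup.mem_centralizer_iff.2 fun _ hb => D.commG hb hy

theorem Setup.cm_le_nm : Cm P ≤ Nm P := fun c hc => by
  have h : ∀ x ∈ (P : Subgroup G), c * x * c⁻¹ = x := fun x hx => by
    rw [← Subgroup.mem_centralizer_iff.1 hc x hx, mul_inv_cancel_right]
  refine Subgroup.mem_normalizer_iff.2 fun x => ⟨fun hx => ?_, fun hx => ?_⟩
  · show c * x * c⁻¹ ∈ (P : Subgroup G)
    rw [h x hx]; exact hx
  · have e := h _ hx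
    have e' : c * x * c⁻¹ = x := mul_left_cancel (mul_right_cancel e)
    rwa [e'] at hx

theorem Setup.card_pow : ∃ k, Nat.card P = p ^ k := (IsPGroup.iff_card.1 P.2)

theorem Setup.isPPow {y : G} (hy : y ∈ (P : Subgroup G)) : ∃ k : ℕ, orderOf y = p ^ k := by
  obtain ⟨k, hk⟩ := IsPGroup.iff_orderOf.1 P.2 ⟨y, hy⟩
  exact ⟨k, by rw [← hk, Subgroup.orderOf_mk]⟩

/-- Elements of `P` conjugate in the group are conjugate in the normalizer. -/
theorem Setup.fusion {y z : G} (hy : y ∈ (P : Subgroup G)) (hz : z ∈ (P : Subgroup G)) (h : IsConj y z) :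
    ∃ n ∈ Nm P, n * y * n⁻¹ = z := by
  obtain ⟨g, hg⟩ := isConj_iff.1 h
  have hn : ∀ a : G, a ∈ (P : Subgroup G) → (P : Subgroup G) ≤ Subgroup.normalizer ({a} : Set G) := fun a ha b hb => by
    refine Subgroup.mem_set_normalizer_iff.2 fun x => ?_
    simp only [Set.mem_singleton_iff]
    have e : b * a * b⁻¹ = a := by rw [D.commG hb ha, mul_inv_cancel_right]
    exact ⟨fun hx => by rw [hx, e], fun hx => mul_left_cancel (mul_right_cancel (hx.trans e.symm))⟩
  obtain ⟨n, hn', he⟩ := Transfer.burnside_fusion_image P (A := {y}) (g := g) (hn y hy)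
    (by rw [Set.image_singleton, hg]; exact hn z hz)
  rw [Set.image_singleton, Set.image_singleton, Set.singleton_eq_singleton_iff, hg] at he
  exact ⟨n, hn', he⟩

/-- Centralizers of nontrivial elements of `P` have a normal `p`-complement holding their `p`-regular elements. -/
theorem Setup.mem_core {y v : G} (hy : y ∈ (P : Subgroup G)) (hy1 : y ≠ 1) (hc : Commute y v)
    (hv : ¬ p ∣ orderOf v) : v ∈ centralizerPPrimeCore p y := by
  set H := Subgroup.centralizer ({y} : Set G) with hH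
  have hle : (P : Subgroup G) ≤ H := fun b hb => Subgroup.mem_centralizer_singleton_iff.2 (D.commG hb hy)
  set P' := P.subtype hle with hP'
  have hNC : Subgroup.normalizer ((P' : Subgroup H) : Set H) ≤ Subgroup.centralizer ((P' : Subgroup H) : Set H) := by
    intro n hn
    have hnG : (n : G) ∈ Nm P := by
      refine Subgroup.mem_normalizer_iff.2 fun x => ?_
      by_cases hx : x ∈ H
      · have := Subgroup.mem_normalizer_iff.1 hn ⟨x, hx⟩
        simp only [hP', Sylow.coe_subtype, Subgroup.mem_subgroupOf, Subgroup.coe_mul, Subgroup.coe_inv] at this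
        exact this
      · refine ⟨fun h => absurd (hle h) hx, fun h => absurd ?_ hx⟩
        have h2 := H.mul_mem (H.mul_mem (H.inv_mem n.2) (hle h)) n.2
        rwa [show (n : G)⁻¹ * ((n : G) * x * (n : G)⁻¹) * (n : G) = x by group] at h2
    have hC : (n : G) ∈ Cm P := by rw [← D.fpf y hy hy1]; exact ⟨n.2, hnG⟩
    refine Subgroup.mem_centralizer_iff.2 fun b hb => Subtype.ext ?_
    rw [hP', SetLike.mem_coe, Sylow.coe_subtype, Subgroup.mem_subgroupOf] at hb
    exact Subgroup.mem_centralizer_iff.1 hC _ hb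
  set K := (MonoidHom.transferSylow P' hNC).ker with hK
  have hcompl := MonoidHom.ker_transferSylow_isComplement' P' hNC
  have hKp : ¬ p ∣ Nat.card K := MonoidHom.not_dvd_card_ker_transferSylow P' hNC
  have hvH : v ∈ H := Subgroup.mem_centralizer_singleton_iff.2 hc.eq.symm
  have hvK : (⟨v, hvH⟩ : H) ∈ K := by
    have h1 := Subgroup.pow_index_mem K ⟨v, hvH⟩
    rw [hcompl.symm.index_eq_card] at h1
    obtain ⟨k, hk⟩ := IsPGroup.iff_card.1 P'.2
    rw [hk] at h1
    obtain ⟨r, hr⟩ := exists_pow_eq_self_of_coprime (x := (⟨v, hvH⟩ : H)) (n := p ^ k) (by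
      rw [Subgroup.orderOf_mk]
      exact ((D.hM.1.coprime_iff_not_dvd.2 hv).pow_left k))
    rw [← hr]
    exact K.pow_mem h1 r
  refine ⟨⟨v, hvH⟩, le_sSup (show K ∈ {N : Subgroup H | N.Normal ∧ (Nat.card N).Coprime p} from
    ⟨MonoidHom.normal_ker _, (D.hM.1.coprime_iff_not_dvd.2 hKp).symm⟩) hvK, rfl⟩

/-- Members of the principal block are constant on each section. -/
theorem Setup.apply_section {χ : IrrCharacter G} (hχ : χ ∈ principalBlock M G) {z y : G} (h : IsPPart p z y)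
    (hy : y ∈ (P : Subgroup G)) (hy1 : y ≠ 1) : (χ : G → ℂ) z = (χ : G → ℂ) y := by
  haveI := Fintype.ofFinite G
  obtain ⟨v, rfl, hc, -, hv⟩ := h
  exact ZStar.principal_apply_mul_core D.hM (D.isPPow hy) hχ (D.mem_core hy hy1 hc hv)

/-- The degree sum of the principal block of a centralizer. -/
theorem Setup.lambda_eq {y : G} (hy : y ∈ (P : Subgroup G)) (hy1 : y ≠ 1) :
    (∑ᶠ ψ ∈ principalBlock M ↥(Subgroup.centralizer ({y} : Set G)),
      charDegree (ψ : ↥(Subgroup.centralizer ({y} : Set G)) → ℂ) ^ 2) = Nat.card P := by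
  haveI := Fintype.ofFinite G
  classical
  haveI : Fintype (IrrCharacter G) := @Fintype.ofFinite _ finite_irrCharacter
  set H := Subgroup.centralizer ({y} : Set G) with hH
  haveI : Fintype H := Fintype.ofFinite H
  haveI : Fintype (IrrCharacter H) := @Fintype.ofFinite _ finite_irrCharacter
  have hle : (P : Subgroup G) ≤ H := fun b hb => Subgroup.mem_centralizer_singleton_iff.2 (D.commG hb hy)
  set P' := P.subtype hle with hP'
  have hcardP : Nat.card P' = Nat.card P := by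
    rw [hP', Sylow.coe_subtype]
    exact Nat.card_congr (Subgroup.subgroupOfEquivOfLe hle).toEquiv
  have hidx : ∃ k : ℕ, (pPrimeCore p H).index = p ^ k := by
    haveI := (PCore.pPrimeCore_mem p H).1
    refine IsPGroup.iff_card.1 ?_ |>.imp fun k hk => (Subgroup.index_eq_card _).trans hk
    intro q
    obtain ⟨w, rfl⟩ := QuotientGroup.mk'_surjective _ q
    obtain ⟨a, b, hab, hcm, ⟨k, hk⟩, hb, -, -⟩ := ZStar.exists_pPart D.hM.1 w
    refine ⟨k, ?_⟩
    rw [← map_pow, QuotientGroup.mk'_apply, QuotientGroup.eq_one_iff, ← hab, hcm.mul_pow,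
      show a ^ p ^ k = 1 by rw [← hk, pow_orderOf_eq_one], one_mul]
    refine Subgroup.pow_mem _ ?_ _
    obtain ⟨b', hb', he⟩ := D.mem_core hy hy1
      (v := (b : G)) (Subgroup.mem_centralizer_singleton_iff.1 b.2).symm (by rwa [Subgroup.orderOf_coe])
    rwa [Subtype.ext he] at hb'
  have h1 : ¬ p ∣ orderOf (1 : H) := by rw [orderOf_one]; exact D.hM.1.not_dvd_one
  have h2 := (Cfsg.Agent.S0947.result p M D.hM y (D.isPPow hy) hy1 1 h1).2 hidx
  have h3 := Cfsg.Agent.S4720.column_norm D.hM (D.isPPow hy)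
  simp only [Subgroup.coe_one, mul_one] at h2
  rw [finsum_mem_eq_toFinset_sum] at h2 h3
  rw [← P'.card_eq_multiplicity, hcardP] at h2
  have h4 := congrArg (fun r : ℝ => (r : ℂ)) h2
  simp only [Complex.ofReal_sum, Complex.ofReal_pow, Complex.ofReal_natCast, ← Complex.mul_conj'] at h4
  exact_mod_cast h3.symm.trans h4

/-- Conjugation of linear characters by the normalizer. -/
noncomputable def Setup.tw (_D : Setup M P) (x : Nm P) (ψ : ↥(P : Subgroup G) →* ℂˣ) : ↥(P : Subgroup G) →* ℂˣ where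
  toFun w := ψ ⟨(x : G) * w * (x : G)⁻¹, (Subgroup.mem_normalizer_iff.1 x.2 _).1 w.2⟩
  map_one' := by
    rw [show (⟨(x : G) * ((1 : (P : Subgroup G)) : G) * (x : G)⁻¹, _⟩ : (P : Subgroup G)) = 1 from
      Subtype.ext (by simp), map_one]
  map_mul' a b := by
    rw [← map_mul]
    congr 1
    exact Subtype.ext (by simp [mul_assoc])

theorem Setup.tw_apply (x : Nm P) (ψ : ↥(P : Subgroup G) →* ℂˣ) (w : (P : Subgroup G)) (h) :
    D.tw x ψ w = ψ ⟨(x : G) * w * (x : G)⁻¹, h⟩ := rfl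

theorem Setup.tw_mul (x x' : Nm P) (ψ : ↥(P : Subgroup G) →* ℂˣ) : D.tw (x * x') ψ = D.tw x' (D.tw x ψ) := by
  ext w
  simp only [Setup.tw, MonoidHom.coe_mk, OneHom.coe_mk]
  congr 2
  exact Subtype.ext (by simp [mul_assoc])

theorem Setup.tw_id (ψ : ↥(P : Subgroup G) →* ℂˣ) : D.tw 1 ψ = ψ := by
  ext w
  simp only [Setup.tw, MonoidHom.coe_mk, OneHom.coe_mk]
  congr 2
  exact Subtype.ext (by simp)

theorem Setup.tw_one (x : Nm P) : D.tw x 1 = 1 := by ext w; rfl

/-- The orbit relation of the statements. -/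
def Setup.Rel (_D : Setup M P) (ψ ψ' : ↥(P : Subgroup G) →* ℂˣ) : Prop :=
  ∃ n : G, n ∈ Nm P ∧ ∀ w w' : (P : Subgroup G), (w' : G) = n * w * n⁻¹ → ψ' w' = ψ w

theorem Setup.rel_iff (ψ ψ' : ↥(P : Subgroup G) →* ℂˣ) : D.Rel ψ ψ' ↔ ∃ x : Nm P, D.tw x ψ' = ψ := by
  constructor
  · rintro ⟨n, hn, h⟩
    exact ⟨⟨n, hn⟩, MonoidHom.ext fun w => h w _ rfl⟩
  · rintro ⟨x, rfl⟩
    exact ⟨x, x.2, fun w w' he => congrArg ψ' (Subtype.ext he)⟩

theorem Setup.rel_refl (ψ : ↥(P : Subgroup G) →* ℂˣ) : D.Rel ψ ψ := (D.rel_iff _ _).2 ⟨1, D.tw_id ψ⟩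

theorem Setup.rel_symm {ψ ψ' : ↥(P : Subgroup G) →* ℂˣ} (h : D.Rel ψ ψ') : D.Rel ψ' ψ := by
  obtain ⟨x, rfl⟩ := (D.rel_iff _ _).1 h
  exact (D.rel_iff _ _).2 ⟨x⁻¹, by rw [← D.tw_mul, mul_inv_cancel, D.tw_id]⟩

theorem Setup.rel_trans {ψ ψ' ψ'' : ↥(P : Subgroup G) →* ℂˣ} (h : D.Rel ψ ψ') (h' : D.Rel ψ' ψ'') :
    D.Rel ψ ψ'' := by
  obtain ⟨x, rfl⟩ := (D.rel_iff _ _).1 h
  obtain ⟨x', rfl⟩ := (D.rel_iff _ _).1 h'
  exact (D.rel_iff _ _).2 ⟨x' * x, by rw [D.tw_mul]⟩

theorem Setup.rel_one {ψ : ↥(P : Subgroup G) →* ℂˣ} (h : D.Rel 1 ψ) : ψ = 1 := by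
  obtain ⟨x, hx⟩ := (D.rel_iff _ _).1 (D.rel_symm h)
  rw [D.tw_one] at hx
  exact hx.symm

/-- The stabilizer of a nonprincipal linear character. -/
theorem Setup.tw_eq_self_iff {φ : ↥(P : Subgroup G) →* ℂˣ} (hφ : φ ≠ 1) (x : Nm P) :
    D.tw x φ = φ ↔ (x : G) ∈ Cm P := by
  constructor
  · intro h
    by_contra hx
    have hf : ∀ w : (P : Subgroup G), (x : G) * w * (x : G)⁻¹ * (w : G)⁻¹ ∈ (P : Subgroup G) := fun w =>
      mul_mem ((Subgroup.mem_normalizer_iff.1 x.2 _).1 w.2) (inv_mem w.2)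
    let f : ↥(P : Subgroup G) → (P : Subgroup G) := fun w => ⟨_, hf w⟩
    have hfinj : Function.Injective f := by
      intro a b hab
      have h1 := congrArg Subtype.val hab
      simp only [f] at h1
      have hc : (x : G) * ((b⁻¹ * a : (P : Subgroup G)) : G) * (x : G)⁻¹ = ((b⁻¹ * a : (P : Subgroup G)) : G) := by
        simp only [Subgroup.coe_mul, Subgroup.coe_inv]
        have hba : (b : G) * (a : G) = (a : G) * b := D.commG b.2 a.2
        calc (x : G) * ((b : G)⁻¹ * a) * (x : G)⁻¹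
            = ((x : G) * b * (x : G)⁻¹ * (b : G)⁻¹ * b)⁻¹ * ((x : G) * a * (x : G)⁻¹ * (a : G)⁻¹ * a) := by group
          _ = (b : G)⁻¹ * a := by rw [h1]; group
      by_contra hne
      have hne' : ((b⁻¹ * a : (P : Subgroup G)) : G) ≠ 1 := fun h => hne (inv_mul_eq_one.1 (Subtype.ext h)).symm
      have : (x : G) ∈ Subgroup.centralizer ({((b⁻¹ * a : (P : Subgroup G)) : G)} : Set G) ⊓ Nm P :=
        ⟨Subgroup.mem_centralizer_singleton_iff.2 (mul_inv_eq_iff_eq_mul.1 hc), x.2⟩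
      rw [D.fpf _ (b⁻¹ * a).2 hne'] at this
      exact hx this
    obtain ⟨hsurj⟩ : Nonempty (Function.Surjective f) := ⟨Finite.surjective_of_injective hfinj⟩
    refine hφ (MonoidHom.ext fun v => ?_)
    obtain ⟨w, rfl⟩ := hsurj v
    have e : f w = ⟨(x : G) * w * (x : G)⁻¹, (Subgroup.mem_normalizer_iff.1 x.2 _).1 w.2⟩ * w⁻¹ := rfl
    rw [e, map_mul, map_inv]
    have h2 : φ ⟨(x : G) * w * (x : G)⁻¹, (Subgroup.mem_normalizer_iff.1 x.2 _).1 w.2⟩ = φ w :=
      congrArg (fun ψ : ↥(P : Subgroup G) →* ℂˣ => ψ w) h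
    rw [h2, mul_inv_cancel, MonoidHom.one_apply]
  · intro hx
    ext w
    simp only [Setup.tw, MonoidHom.coe_mk, OneHom.coe_mk]
    congr 2
    refine Subtype.ext ?_
    show (x : G) * w * (x : G)⁻¹ = w
    rw [← Subgroup.mem_centralizer_iff.1 hx w w.2, mul_inv_cancel_right]

/-- The number of normalizer elements carrying `φ` to `ψ`. -/
noncomputable def Setup.cnt (_D : Setup M P) (ψ φ : ↥(P : Subgroup G) →* ℂˣ) : ℕ :=
  Nat.card {x : Nm P // _D.tw x φ = ψ}

theorem Setup.cnt_zero {ψ φ : ↥(P : Subgroup G) →* ℂˣ} (h : ¬ D.Rel ψ φ) : D.cnt ψ φ = 0 := by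
  haveI : IsEmpty {x : Nm P // D.tw x φ = ψ} := ⟨fun x => h ((D.rel_iff _ _).2 ⟨x.1, x.2⟩)⟩
  exact Nat.card_of_isEmpty

theorem Setup.cnt_one : D.cnt 1 1 = Nat.card (Nm P) :=
  Nat.card_congr (Equiv.subtypeUnivEquiv fun x => D.tw_one x)

theorem Setup.cnt_rel {ψ φ : ↥(P : Subgroup G) →* ℂˣ} (hφ : φ ≠ 1) (h : D.Rel ψ φ) :
    D.cnt ψ φ = Nat.card (Cm P) := by
  obtain ⟨x₀, hx₀⟩ := (D.rel_iff _ _).1 h
  have key : ∀ x : Nm P, D.tw x φ = ψ ↔ ((x * x₀⁻¹ : Nm P) : G) ∈ Cm P := fun x => by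
    rw [← D.tw_eq_self_iff hφ, D.tw_mul]
    constructor
    · intro hx
      rw [hx, ← hx₀, ← D.tw_mul, mul_inv_cancel, D.tw_id]
    · intro hx
      have := congrArg (D.tw x₀) hx
      rwa [← D.tw_mul, inv_mul_cancel, D.tw_id, hx₀] at this
  refine Nat.card_congr
    { toFun := fun x => ⟨_, (key x.1).1 x.2⟩
      invFun := fun c => ⟨⟨(c : G), D.cm_le_nm c.2⟩ * x₀, (key _).2 (by simp)⟩
      left_inv := fun x => by ext; simp
      right_inv := fun c => by ext; simp }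

/-- The multiplicity of a linear character in the restriction to `P`. -/
noncomputable def Setup.mlt (_D : Setup M P) (χ : IrrCharacter G) (ψ : ↥(P : Subgroup G) →* ℂˣ) : ℂ :=
  (Nat.card P : ℂ)⁻¹ * ∑ᶠ y : (P : Subgroup G), (χ : G → ℂ) (y : G) * ((ψ y⁻¹ : ℂˣ) : ℂ)

theorem Setup.mlt_nat (χ : IrrCharacter G) (ψ : ↥(P : Subgroup G) →* ℂˣ) : ∃ n : ℕ, D.mlt χ ψ = n := by
  haveI := Fintype.ofFinite G
  haveI : Fintype (P : Subgroup G) := Fintype.ofFinite _
  obtain ⟨n, hn⟩ := classInner_characters_nat (isCharacter_restrict (isCharacter_of_irr χ.2) (P : Subgroup G))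
    (isCharacter_of_irr (Exceptional.isIrr_of_hom ψ))
  refine ⟨n, ?_⟩
  rw [← hn, classInner_eq, Setup.mlt, finsum_eq_sum_of_fintype]
  congr 1
  exact Finset.sum_congr rfl fun y _ => by rw [conj_hom]

theorem Setup.mlt_rel (χ : IrrCharacter G) {ψ φ : ↥(P : Subgroup G) →* ℂˣ} (h : D.Rel ψ φ) :
    D.mlt χ ψ = D.mlt χ φ := by
  haveI : Fintype (P : Subgroup G) := Fintype.ofFinite _
  obtain ⟨x, rfl⟩ := (D.rel_iff _ _).1 h
  rw [Setup.mlt, Setup.mlt, finsum_eq_sum_of_fintype, finsum_eq_sum_of_fintype]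
  congr 1
  refine Fintype.sum_bijective (fun w : (P : Subgroup G) =>
    (⟨(x : G) * w * (x : G)⁻¹, (Subgroup.mem_normalizer_iff.1 x.2 _).1 w.2⟩ : (P : Subgroup G)))
    (Finite.injective_iff_bijective.1 fun a b hab => Subtype.ext
      ((MulAut.conj (x : G)).injective (congrArg Subtype.val hab))) _ _ fun w => ?_
  rw [isClassFunction (isCharacter_of_irr χ.2) (w : G) (x : G)]
  congr 2
  rw [D.tw_apply x φ w⁻¹ ((Subgroup.mem_normalizer_iff.1 x.2 _).1 (w⁻¹).2)]
  congr 1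
  exact Subtype.ext (by simp [mul_assoc])

/-- The Gram relations of the principal block. -/
theorem Setup.gram [Fintype (IrrCharacter G)] [DecidablePred (· ∈ principalBlock M G)]
    (ψ ψ' φ : ↥(P : Subgroup G) →* ℂˣ) :
    ∑ χ ∈ Finset.univ.filter (· ∈ principalBlock M G), (D.mlt χ ψ - D.mlt χ ψ') * D.mlt χ φ =
      ((D.cnt ψ φ : ℂ) - D.cnt ψ' φ) / Nat.card (Cm P) := by
  classical
  haveI := Fintype.ofFinite G
  haveI : Fintype (P : Subgroup G) := Fintype.ofFinite _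
  haveI : Fintype (Nm P) := Fintype.ofFinite _
  set θ : ↥(P : Subgroup G) → ℂ := fun y => ((ψ y : ℂˣ) : ℂ) - ((ψ' y : ℂˣ) : ℂ) with hθ
  set η : ↥(P : Subgroup G) → ℂ := fun y => ((φ y : ℂˣ) : ℂ) with hη
  have hgen : ∀ l : ↥(P : Subgroup G) →* ℂˣ, IsCharacter (P : Subgroup G) (fun y => ((l y : ℂˣ) : ℂ)) := fun l =>
    isCharacter_of_irr (Exceptional.isIrr_of_hom l)
  have hU : ∀ u ∈ ({u : G | u ∈ (P : Subgroup G) ∧ u ≠ 1}), ∀ g : G,
      g * u * g⁻¹ ∈ ((P : Subgroup G) : Set G) → ∃ n ∈ Nm P, n * u * n⁻¹ = g * u * g⁻¹ :=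
    fun u hu g hg => D.fusion hu.1 hg (isConj_iff.2 ⟨g, rfl⟩)
  have hne : ({u : G | u ∈ (P : Subgroup G) ∧ u ≠ 1}).Nonempty := by
    haveI : Nontrivial (P : Subgroup G) := Finite.one_lt_card_iff_nontrivial.1 (by
      have := D.nontriv
      have h0 : 0 < Nat.card (P : Subgroup G) := Nat.card_pos
      omega)
    obtain ⟨a, ha⟩ := exists_ne (1 : (P : Subgroup G))
    exact ⟨a, a.2, fun h => ha (Subtype.ext h)⟩
  have h := Cfsg.Agent.S4720.result p M D.hM (P : Subgroup G) P.2 (Nm P) (D.le_cm.trans D.cm_le_nm) le_rfl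
    {u : G | u ∈ (P : Subgroup G) ∧ u ≠ 1} hne (fun u hu => hu.1)
    (fun n hn u hu => ⟨(Subgroup.mem_normalizer_iff.1 hn u).1 hu.1, fun he => hu.2 (conj_eq_one_iff.1 he)⟩)
    hU ((Nat.card P : ℚ) / Nat.card (Cm P)) (fun y hy => by
      rw [show Nm P ⊓ Subgroup.centralizer ({y} : Set G) = Cm P from (inf_comm _ _).trans (D.fpf y hy.1 hy.2),
        div_mul_cancel₀ _ (Nat.cast_ne_zero.2 Nat.card_pos.ne')]
      have e := D.lambda_eq hy.1 hy.2
      haveI : Fintype (IrrCharacter ↥(Subgroup.centralizer ({y} : Set G))) :=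
        @Fintype.ofFinite _ finite_irrCharacter
      rw [finsum_mem_eq_toFinset_sum] at e ⊢
      exact_mod_cast e)
    θ η ⟨_, _, hgen ψ, hgen ψ', rfl⟩ ⟨_, 0, hgen φ, isCharacter_zero, (sub_zero _).symm⟩ (fun y hy => by
      have : y = 1 := by
        by_contra hne
        exact hy ⟨y.2, fun h => hne (Subtype.ext h)⟩
      simp [hθ, this])
  rw [finsum_mem_eq_toFinset_sum,
    show (principalBlock M G).toFinset = Finset.univ.filter (· ∈ principalBlock M G) by ext; simp] at h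
  refine (Finset.sum_congr rfl fun χ _ => ?_).trans (h.trans ?_)
  · obtain ⟨n, hn⟩ := D.mlt_nat χ φ
    congr 1
    · simp only [Setup.mlt, hθ, finsum_eq_sum_of_fintype, ← mul_sub, ← Finset.sum_sub_distrib]
    · rw [show (Nat.card ↥(P : Subgroup G) : ℂ)⁻¹ * ∑ᶠ y : (P : Subgroup G), (χ : G → ℂ) (y : G) * η y⁻¹ =
        D.mlt χ φ from rfl, hn, map_natCast]
  · simp only [finsum_eq_sum_of_fintype, map_sum, Finset.mul_sum]
    rw [Finset.sum_comm]
    have e : ∀ x : Nm P, ∑ y : (P : Subgroup G),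
        θ y * conj (extendByZero (P : Subgroup G) η ((x : G) * (y : G) * (x : G)⁻¹)) =
        (Nat.card P : ℂ) * ((if D.tw x φ = ψ then 1 else 0) - (if D.tw x φ = ψ' then 1 else 0)) := by
      intro x
      have e1 : ∀ y : (P : Subgroup G), extendByZero (P : Subgroup G) η ((x : G) * (y : G) * (x : G)⁻¹) =
          ((D.tw x φ y : ℂˣ) : ℂ) := fun y => by
        rw [extendByZero]
        exact Subtype.val_injective.extend_apply η 0 ⟨_, (Subgroup.mem_normalizer_iff.1 x.2 _).1 y.2⟩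
      have e2 : ∀ (l : ↥(P : Subgroup G) →* ℂˣ) (y : (P : Subgroup G)),
          ((l y : ℂˣ) : ℂ) * conj ((D.tw x φ y : ℂˣ) : ℂ) = (((l * (D.tw x φ)⁻¹) y : ℂˣ) : ℂ) := fun l y => by
        rw [conj_hom, MonoidHom.mul_apply, MonoidHom.inv_apply, map_inv, Units.val_mul]
      simp only [e1, hθ, sub_mul, e2, Finset.sum_sub_distrib, sum_hom, mul_sub, mul_ite, mul_one, mul_zero]
      have e3 : ∀ l : ↥(P : Subgroup G) →* ℂˣ, l * (D.tw x φ)⁻¹ = 1 ↔ D.tw x φ = l := fun l =>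
        ⟨fun h => MonoidHom.ext fun w => by
          have h' := DFunLike.congr_fun h w
          rw [MonoidHom.mul_apply, MonoidHom.inv_apply, MonoidHom.one_apply, mul_inv_eq_one] at h'
          exact h'.symm, fun h => by subst h; ext w; simp⟩
      congr 1 <;> exact if_congr (e3 _) rfl rfl
    rw [Finset.sum_congr rfl fun x _ => by rw [← Finset.mul_sum, e x], ← Finset.mul_sum, ← Finset.mul_sum,
      Finset.sum_sub_distrib, Finset.sum_boole, Finset.sum_boole, Setup.cnt, Setup.cnt,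
      Nat.card_eq_fintype_card (α := {x : Nm P // D.tw x φ = ψ}),
      Nat.card_eq_fintype_card (α := {x : Nm P // D.tw x φ = ψ'}), Fintype.card_subtype, Fintype.card_subtype]
    have hp0 : (Nat.card P : ℂ) ≠ 0 := Nat.cast_ne_zero.2 Nat.card_pos.ne'
    have hc0 : (Nat.card (Cm P) : ℂ) ≠ 0 := Nat.cast_ne_zero.2 Nat.card_pos.ne'
    push_cast
    field_simp

end CfsgLib.Blocks.FpfExc
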