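import Cfsg.Agent.Blocks.FpfExc.Setup
import Cfsg.Agent.Exceptional.Coherent
import Cfsg.Agent.Blocks.PrincipalSum

/-!
# Exceptional characters of the principal block for a fixed-point-free abelian Sylow normalizer
-/

set_option autoImplicit false
set_option linter.style.haveILetI false
set_option linter.unusedSectionVars false

namespace CfsgLib.Blocks.FpfExc

open Cfsg CfsgLib CfsgLib.CharBasics CfsgLib.Blocks
open scoped ComplexConjugate

variable {G : Type*} [Group G] [Finite G] {p : ℕ} [Fact p.Prime] {M : Ideal AlgInt} {P : Sylow p G}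

theorem Setup.ppart_self (D : Setup M P) {y : G} (hy : y ∈ (P : Subgroup G)) : IsPPart p y y :=
  ⟨1, mul_one _, Commute.one_right _, D.isPPow hy, by rw [orderOf_one]; exact D.hM.1.not_dvd_one⟩

/-- Column relations against `p`-regular elements. -/
theorem Setup.regular_relation (D : Setup M P) [Fintype (IrrCharacter G)]
    [DecidablePred (· ∈ principalBlock M G)] (ψ ψ' : ↥(P : Subgroup G) →* ℂˣ) {g : G} (hg : ¬ p ∣ orderOf g) :
    ∑ χ ∈ Finset.univ.filter (· ∈ principalBlock M G), (D.mlt χ ψ - D.mlt χ ψ') * (χ : G → ℂ) g = 0 := by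
  haveI := Fintype.ofFinite G
  haveI : Fintype (P : Subgroup G) := Fintype.ofFinite _
  have h1 : IsPPart p g⁻¹ 1 :=
    ⟨g⁻¹, one_mul _, Commute.one_left _, ⟨0, by rw [orderOf_one, pow_zero]⟩, by rwa [orderOf_inv]⟩
  have hcol : ∀ y : (P : Subgroup G), y ≠ 1 →
      ∑ χ ∈ Finset.univ.filter (· ∈ principalBlock M G), (χ : G → ℂ) (y : G) * (χ : G → ℂ) g = 0 := by
    intro y hy
    have h := block_orth_of_not_isConj D.hM isPBlock_principal (D.ppart_self y.2) h1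
      (fun hc => hy (Subtype.ext (isConj_one_left.1 hc)))
    rw [finsum_mem_eq_toFinset_sum,
      show (principalBlock M G).toFinset = Finset.univ.filter (· ∈ principalBlock M G) by ext; simp] at h
    rw [← h]
    refine Finset.sum_congr rfl fun χ _ => ?_
    rw [apply_inv (isCharacter_of_irr χ.2), Complex.conj_conj]
  simp only [Setup.mlt, finsum_eq_sum_of_fintype, ← mul_sub, ← Finset.sum_sub_distrib, mul_assoc, Finset.sum_mul]
  rw [← Finset.mul_sum, Finset.sum_comm, Finset.sum_eq_zero, mul_zero]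
  intro y _
  by_cases hy : y = 1
  · subst hy; simp
  · rw [Finset.sum_congr rfl (g := fun χ : IrrCharacter G =>
      (((ψ y⁻¹ : ℂˣ) : ℂ) - ((ψ' y⁻¹ : ℂˣ) : ℂ)) * ((χ : G → ℂ) (y : G) * (χ : G → ℂ) g)) fun χ _ => by ring,
      ← Finset.mul_sum, hcol y hy, mul_zero]

/-- The principal character restricted to `P`. -/
theorem Setup.mlt_oneChar (D : Setup M P) (ψ : ↥(P : Subgroup G) →* ℂˣ) [Decidable (ψ = 1)] :
    D.mlt oneChar ψ = if ψ = 1 then 1 else 0 := by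
  classical
  haveI : Fintype (P : Subgroup G) := Fintype.ofFinite _
  have h : ∑ y : (P : Subgroup G), ((ψ y⁻¹ : ℂˣ) : ℂ) = ∑ y : (P : Subgroup G), ((ψ y : ℂˣ) : ℂ) :=
    Fintype.sum_equiv (Equiv.inv _) _ _ fun y => rfl
  simp only [Setup.mlt, finsum_eq_sum_of_fintype, oneChar_apply, one_mul, h, sum_hom]
  split_ifs
  · rw [inv_mul_cancel₀ (Nat.cast_ne_zero.2 Nat.card_pos.ne')]
  · rw [mul_zero]

/-- Every element of order divisible by `p` is conjugate to one with `p`-part a nontrivial element of `P`. -/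
theorem Setup.exists_conj_section (D : Setup M P) {z : G} (hz : p ∣ orderOf z) :
    ∃ c y : G, IsPPart p (c * z * c⁻¹) y ∧ y ∈ (P : Subgroup G) ∧ y ≠ 1 := by
  haveI := Fintype.ofFinite G
  obtain ⟨a, b, hab, hc, ha, hb, -, -⟩ := ZStar.exists_pPart D.hM.1 z
  have ha1 : a ≠ 1 := fun h => hb (by rw [h, one_mul] at hab; rwa [hab])
  obtain ⟨Q, hQ⟩ := (ZStar.isPGroup_zpowers D.hM.1 ha).exists_le_sylow
  obtain ⟨c, rfl⟩ := MulAction.exists_smul_eq G P Q
  refine ⟨c⁻¹, c⁻¹ * a * c⁻¹⁻¹, isPPart_conj ⟨b, hab, hc, ha, hb⟩ c⁻¹, ?_, fun h => ha1 (conj_eq_one_iff.1 h)⟩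
  have := hQ (Subgroup.mem_zpowers a)
  rw [Sylow.coe_subgroup_smul, Subgroup.mem_pointwise_smul_iff_inv_smul_mem] at this
  simpa using this

/-- The structure theorem. -/
theorem Setup.exists_structure (D : Setup M P) {m : ℕ} (hrel : (Cm P).relIndex (Nm P) = m) (hm1 : 1 < m)
    (hm2 : m + 1 < Nat.card P) : ∃ (s : ℕ) (X Y : Set (Cfsg.IrrCharacter G)), s ≤ m ∧ Cfsg.principalBlock M G = X ∪ Y ∧ Disjoint X Y ∧ Nat.card X = s ∧ Nat.card Y = (Nat.card P - 1) / m ∧ (∃ χ₁ ∈ X, (χ₁ : G → ℂ) = fun _ => 1) ∧ ∃ (a : Cfsg.IrrCharacter G → ℤ) (d δ : ℤ) (ζ : (↥(P : Subgroup G) →* ℂˣ) → Cfsg.IrrCharacter G), (δ = 1 ∨ δ = -1) ∧ (∀ χ ∈ X, a χ ≠ 0 ∧ ∀ z y : G, Cfsg.IsPPart p z y → y ∈ (P : Subgroup G) → y ≠ 1 → (χ : G → ℂ) z = (a χ : ℂ)) ∧ (∀ ψ : ↥(P : Subgroup G) →* ℂˣ, ψ ≠ 1 → ζ ψ ∈ Y) ∧ (∀ η ∈ Y, ∃ ψ : ↥(P : Subgroup G) →* ℂˣ, ψ ≠ 1 ∧ ζ ψ = η) ∧ (∀ ψ ψ' : ↥(P : Subgroup G) →* ℂˣ, ψ ≠ 1 → (∃ n : G, n ∈ Subgroup.normalizer ((P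 : Subgroup G) : Set G) ∧ ∀ w w' : ↥(P : Subgroup G), (w' : G) = n * w * n⁻¹ → ψ' w' = ψ w) → ζ ψ' = ζ ψ) ∧ (∀ ψ : ↥(P : Subgroup G) →* ℂˣ, ψ ≠ 1 → ∀ (z : G) (y : ↥(P : Subgroup G)), Cfsg.IsPPart p z (y : G) → (y : G) ≠ 1 → (ζ ψ : G → ℂ) z = (d : ℂ) + (δ : ℂ) * ∑ᶠ ψ' ∈ {ψ' : ↥(P : Subgroup G) →* ℂˣ | ∃ n : G, n ∈ Subgroup.normalizer ((P : Subgroup G) : Set G) ∧ ∀ w w' : ↥(P : Subgroup G), (w' : G) = n * w * n⁻¹ → ψ' w' = ψ w}, ((ψ' y : ℂˣ) : ℂ)) ∧ ((d - δ) ^ 2 + ((Nat.card P - 1) / m - 1 : ℤ) * d ^ 2 + ∑ᶠ χ ∈ X, a χ ^ 2 = (m : ℤ) + 1) ∧ (∀ η ∈ Y, ∀ η' ∈ Y, ∀ g : G, ¬ p ∣ orderOf g → (η : G → ℂ) g = (η' : G → ℂ) g) ∧ (∀ η ∈ Y, ∀ g : G, ¬ p ∣ orderOf g → ((((Nat.card P - 1) / m : ℕ) : ℂ) * d - δ) * (η : G → ℂ) g + ∑ᶠ χ ∈ X, (a χ : ℂ) * (χ : G → ℂ) g = 0) := by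
  classical
  haveI : Fintype G := Fintype.ofFinite G
  haveI : Fintype (P : Subgroup G) := Fintype.ofFinite _
  haveI : Fintype (IrrCharacter G) := @Fintype.ofFinite _ finite_irrCharacter
  haveI : Finite (↥(P : Subgroup G) →* ℂˣ) := finite_homs D.comm
  haveI : Fintype (↥(P : Subgroup G) →* ℂˣ) := Fintype.ofFinite _
  haveI : Fintype (Nm P) := Fintype.ofFinite _
  have hc0 : (Nat.card (Cm P) : ℂ) ≠ 0 := Nat.cast_ne_zero.2 Nat.card_pos.ne'
  have hN : Nat.card (Nm P) = m * Nat.card (Cm P) := by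
    rw [← hrel, Subgroup.relIndex, ← Subgroup.card_mul_index ((Cm P).subgroupOf (Nm P)),
      Nat.card_congr (Subgroup.subgroupOfEquivOfLe D.cm_le_nm).toEquiv, mul_comm]
  -- orbits of nonprincipal linear characters
  let X₀ := {ψ : ↥(P : Subgroup G) →* ℂˣ // ψ ≠ 1}
  let setoidX : Setoid X₀ := ⟨fun ψ φ => D.Rel ψ.1 φ.1, ⟨fun ψ => D.rel_refl _, fun h => D.rel_symm h,
    fun h h' => D.rel_trans h h'⟩⟩
  let ι := Quotient setoidX
  haveI : Fintype ι := Fintype.ofFinite _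
  let cls : X₀ → ι := Quotient.mk setoidX
  let rep : ι → X₀ := fun i => i.out
  have hrep : ∀ i, cls (rep i) = i := fun i => Quotient.out_eq i
  have hcls : ∀ ψ φ : X₀, cls ψ = cls φ ↔ D.Rel ψ.1 φ.1 := fun ψ φ => Quotient.eq
  have horb : ∀ φ : X₀, (Finset.univ.filter fun ψ : ↥(P : Subgroup G) →* ℂˣ => D.Rel ψ φ.1).card = m := by
    intro φ
    have h1 : ∑ ψ : ↥(P : Subgroup G) →* ℂˣ, D.cnt ψ φ.1 = Nat.card (Nm P) := by
      rw [Nat.card_eq_fintype_card (α := Nm P), ← Finset.card_univ]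
      simp only [Setup.cnt]
      rw [Finset.sum_congr rfl fun ψ _ => (Nat.card_eq_fintype_card).trans (Fintype.card_subtype _)]
      exact (Finset.card_eq_sum_card_fiberwise (f := fun x : Nm P => D.tw x φ.1)
        (t := Finset.univ) fun x _ => Finset.mem_univ _).symm
    rw [← Finset.sum_filter_add_sum_filter_not Finset.univ (fun ψ => D.Rel ψ φ.1),
      Finset.sum_congr rfl (fun ψ hψ => D.cnt_rel φ.2 (Finset.mem_filter.1 hψ).2), Finset.sum_const,
      Finset.sum_eq_zero (fun ψ hψ => D.cnt_zero (Finset.mem_filter.1 hψ).2), add_zero, smul_eq_mul, hN] at h1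
    exact Nat.eq_of_mul_eq_mul_right Nat.card_pos h1
  have hcardX : Fintype.card X₀ = Nat.card P - 1 := by
    show Fintype.card {ψ : ↥(P : Subgroup G) →* ℂˣ // ¬ ψ = 1} = _
    rw [Fintype.card_subtype_compl, Fintype.card_subtype_eq, ← Nat.card_eq_fintype_card, card_homs D.comm]
  have hfib : ∀ i, (Finset.univ.filter fun ψ : X₀ => cls ψ = i).card = m := by
    intro i
    rw [← horb (rep i)]
    refine Finset.card_bij (fun ψ _ => ψ.1) (fun ψ hψ => ?_) (fun a _ b _ h => Subtype.ext h) (fun ψ hψ => ?_)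
    · refine Finset.mem_filter.2 ⟨Finset.mem_univ _, (hcls _ _).1 ?_⟩
      rw [hrep]; exact (Finset.mem_filter.1 hψ).2
    · have hR := (Finset.mem_filter.1 hψ).2
      refine ⟨⟨ψ, fun h => (rep i).2 (D.rel_one (h ▸ hR))⟩, Finset.mem_filter.2 ⟨Finset.mem_univ _, ?_⟩, rfl⟩
      exact ((hcls _ _).2 hR).trans (hrep i)
  have hr : Fintype.card ι * m = Nat.card P - 1 := by
    rw [← hcardX, ← Finset.card_univ (α := X₀),
      Finset.card_eq_sum_card_fiberwise (f := cls) (t := Finset.univ) (fun x _ => Finset.mem_univ _),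
      Finset.sum_congr rfl (fun i _ => hfib i), Finset.sum_const, Finset.card_univ, smul_eq_mul]
  set r := Fintype.card ι with hrdef
  have hr2 : 2 ≤ r := by
    by_contra hlt
    have : r * m ≤ 1 * m := Nat.mul_le_mul_right m (by omega)
    omega
  have hrdiv : (Nat.card P - 1) / m = r := by rw [← hr, Nat.mul_div_cancel _ (by omega)]
  obtain ⟨o₀, o₁, ho⟩ : ∃ i j : ι, i ≠ j := Fintype.exists_pair_of_one_lt_card hr2
  haveI : Nonempty ι := ⟨o₀⟩
  -- the isometry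
  set S := Finset.univ.filter (· ∈ principalBlock M G) with hS
  set θ : ι → ↥(P : Subgroup G) → ℂ := fun i y => (((rep i).1 y : ℂˣ) : ℂ) with hθ
  set τ : (↥(P : Subgroup G) → ℂ) → G → ℂ := fun F => ∑ χ ∈ S,
    ((Nat.card P : ℂ)⁻¹ * ∑ y : (P : Subgroup G), (χ : G → ℂ) (y : G) * F y⁻¹) • (χ : G → ℂ) with hτ
  set cn : IrrCharacter G → (↥(P : Subgroup G) →* ℂˣ) → ℕ := fun χ ψ => (D.mlt_nat χ ψ).choose with hcn
  have hmlt : ∀ χ ψ, D.mlt χ ψ = (cn χ ψ : ℂ) := fun χ ψ => (D.mlt_nat χ ψ).choose_spec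
  have hτd : ∀ i j, τ (θ i - θ j) =
      ∑ χ ∈ S, (D.mlt χ (rep i).1 - D.mlt χ (rep j).1) • (χ : G → ℂ) := fun i j => by
    refine Finset.sum_congr rfl fun χ _ => ?_
    congr 1
    simp only [Setup.mlt, finsum_eq_sum_of_fintype, ← mul_sub, ← Finset.sum_sub_distrib, hθ, Pi.sub_apply]
  have hcoef : ∀ i j, ∀ χ : IrrCharacter G, classInner (τ (θ i - θ j)) (χ : G → ℂ) =
      if χ ∈ S then D.mlt χ (rep i).1 - D.mlt χ (rep j).1 else 0 := by
    intro i j χ
    rw [hτd, classInner_sum_left]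
    split_ifs with hχ
    · rw [Finset.sum_eq_single_of_mem χ hχ fun ρ _ hne => by
        rw [classInner_smul_left, classInner_ne ρ.2 χ.2 fun h => hne (Subtype.ext h), mul_zero],
        classInner_smul_left, classInner_self χ.2, mul_one]
    · exact Finset.sum_eq_zero fun ρ hρ => by
        rw [classInner_smul_left, classInner_ne ρ.2 χ.2 fun h => hχ ((Subtype.ext h : ρ = χ) ▸ hρ), mul_zero]
  have hI : ∀ i k : ι, (D.cnt (rep i).1 (rep k).1 : ℂ) / Nat.card (Cm P) = if i = k then 1 else 0 := by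
    intro i k
    split_ifs with h
    · subst h; rw [D.cnt_rel (rep i).2 (D.rel_refl _), div_self hc0]
    · rw [D.cnt_zero fun hR => h (by rw [← hrep i, ← hrep k]; exact (hcls _ _).2 hR), Nat.cast_zero, zero_div]
  have hθirr : ∀ i, IsIrrCharacter (↥(P : Subgroup G)) (θ i) := fun i => Exceptional.isIrr_of_hom (rep i).1
  have hθinj : Function.Injective θ := fun i k h => by
    rw [← hrep i, ← hrep k]
    exact congrArg cls (Subtype.ext (MonoidHom.ext fun y => Units.ext (congrFun h y)))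
  have hθinner : ∀ i k : ι, classInner (θ i) (θ k) = if i = k then 1 else 0 := fun i k => by
    split_ifs with h
    · subst h; exact classInner_self (hθirr i)
    · exact classInner_ne (hθirr i) (hθirr k) (hθinj.ne h)
  obtain ⟨ε, f, hε, hfinj, hf⟩ := Exceptional.exceptional_family θ hθirr hθinj ⟨o₀, o₁, ho⟩ τ
    (fun i j => by
      refine ⟨∑ χ ∈ S, cn χ (rep i).1 • (χ : G → ℂ), ∑ χ ∈ S, cn χ (rep j).1 • (χ : G → ℂ),
        isCharacter_sum _ _ (fun χ _ => isCharacter_nsmul _ (isCharacter_of_irr χ.2)),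
        isCharacter_sum _ _ (fun χ _ => isCharacter_nsmul _ (isCharacter_of_irr χ.2)), ?_⟩
      rw [hτd, ← Finset.sum_sub_distrib]
      exact Finset.sum_congr rfl fun χ _ => by rw [hmlt, hmlt, sub_smul, Nat.cast_smul_eq_nsmul, Nat.cast_smul_eq_nsmul])
    (fun i j => by
      rw [hτd]
      simp only [Finset.sum_apply, Pi.smul_apply, smul_eq_mul]
      exact D.regular_relation _ _ (by rw [orderOf_one]; exact D.hM.1.not_dvd_one))
    (fun i j k l => by
      rw [hτd k l, classInner_sum_right]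
      have e : ∀ χ ∈ S, classInner (τ (θ i - θ j)) ((D.mlt χ (rep k).1 - D.mlt χ (rep l).1) • (χ : G → ℂ)) =
          (D.mlt χ (rep i).1 - D.mlt χ (rep j).1) * D.mlt χ (rep k).1 -
            (D.mlt χ (rep i).1 - D.mlt χ (rep j).1) * D.mlt χ (rep l).1 := fun χ hχ => by
        rw [classInner_comm, classInner_smul_left, map_mul, ← classInner_comm, hcoef, if_pos hχ,
          hmlt χ (rep k).1, hmlt χ (rep l).1, map_sub, map_natCast, map_natCast]
        ring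
      rw [Finset.sum_congr rfl e, Finset.sum_sub_distrib, D.gram, D.gram, sub_div, sub_div, hI, hI, hI, hI,
        Exceptional.classInner_sub_left, Exceptional.classInner_sub_right, Exceptional.classInner_sub_right,
        hθinner, hθinner, hθinner, hθinner]
      ring)
    (fun i j k => by
      rw [hτd, hτd, hτd, ← Finset.sum_add_distrib]
      exact Finset.sum_congr rfl fun χ _ => by rw [← add_smul]; congr 1; ring)
  obtain ⟨δ, hδ, rfl⟩ : ∃ δ : ℤ, (δ = 1 ∨ δ = -1) ∧ ε = (δ : ℂ) := by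
    rcases hε with h | h
    · exact ⟨1, Or.inl rfl, by rw [h]; simp⟩
    · exact ⟨-1, Or.inr rfl, by rw [h]; simp⟩
  have hδ0 : (δ : ℂ) ≠ 0 := by rcases hδ with rfl | rfl <;> norm_num
  have hδ2 : (δ : ℂ) * δ = 1 := by rcases hδ with rfl | rfl <;> norm_num
  let ind : ι → IrrCharacter G → ℂ := fun i χ => if χ = f i then 1 else 0
  have hcoef' : ∀ i j, ∀ χ : IrrCharacter G,
      (if χ ∈ S then D.mlt χ (rep i).1 - D.mlt χ (rep j).1 else 0) = (δ : ℂ) * (ind i χ - ind j χ) := by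
    intro i j χ
    rw [← hcoef, hf i j, classInner_smul_left, Exceptional.classInner_sub_left]
    have hh : ∀ k, classInner (f k : G → ℂ) (χ : G → ℂ) = ind k χ := fun k => by
      simp only [ind]
      split_ifs with h
      · subst h; exact classInner_self (f k).2
      · exact classInner_ne (f k).2 χ.2 fun he => h (Subtype.ext he).symm
    rw [hh, hh]
  have hfS : ∀ i, f i ∈ S := by
    intro i
    obtain ⟨j, hj⟩ : ∃ j, j ≠ i := by
      by_cases h : o₀ = i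
      · exact ⟨o₁, fun e => ho (h.trans e.symm)⟩
      · exact ⟨o₀, h⟩
    by_contra hn
    have h := hcoef' i j (f i)
    simp only [if_neg hn, ind, if_pos, if_neg fun e => hj (hfinj e).symm, sub_zero, mul_one] at h
    exact hδ0 h.symm
  set bb : IrrCharacter G → ℂ := fun χ => D.mlt χ (rep o₀).1 - δ * ind o₀ χ with hbb
  have hmlt' : ∀ χ ∈ S, ∀ ψ : X₀, D.mlt χ ψ.1 = bb χ + δ * ind (cls ψ) χ := by
    intro χ hχ ψ
    have h := hcoef' (cls ψ) o₀ χ
    rw [if_pos hχ, D.mlt_rel χ ((hcls _ ψ).1 (hrep (cls ψ)))] at h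
    simp only [hbb]
    linear_combination h
  set cc : IrrCharacter G → ℂ := fun χ => D.mlt χ 1 - bb χ with hcc
  have hint : ∀ χ, ∃ z : ℤ, cc χ = z := fun χ => by
    refine ⟨(cn χ 1 : ℤ) - cn χ (rep o₀).1 + δ * (if χ = f o₀ then 1 else 0), ?_⟩
    simp only [hcc, hbb, hmlt, ind]
    push_cast
    split_ifs <;> ring
  choose a ha using hint
  have hval : ∀ χ ∈ S, ∀ y : (P : Subgroup G), y ≠ 1 → (χ : G → ℂ) (y : G) =
      cc χ + δ * ∑ ψ : X₀, ind (cls ψ) χ * ((ψ.1 y : ℂˣ) : ℂ) := by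
    intro χ hχ y hy
    have h := fourier D.comm (fun w : (P : Subgroup G) => (χ : G → ℂ) (w : G)) y
    have hm' : ∀ ψ : ↥(P : Subgroup G) →* ℂˣ, ((Nat.card (P : Subgroup G) : ℂ)⁻¹ * ∑ w : (P : Subgroup G),
        (χ : G → ℂ) (w : G) * ((ψ w⁻¹ : ℂˣ) : ℂ)) = D.mlt χ ψ := fun ψ => by
      rw [Setup.mlt, finsum_eq_sum_of_fintype]
    simp only [hm'] at h
    have hz : ∑ ψ : ↥(P : Subgroup G) →* ℂˣ, ((ψ y : ℂˣ) : ℂ) = 0 := by rw [sum_homs D.comm, if_neg hy]
    rw [← Finset.add_sum_erase _ _ (Finset.mem_univ (1 : ↥(P : Subgroup G) →* ℂˣ)), MonoidHom.one_apply,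
      Units.val_one] at h hz
    have e : ∀ F : (↥(P : Subgroup G) →* ℂˣ) → ℂ,
        ∑ ψ ∈ Finset.univ.erase 1, F ψ = ∑ ψ : X₀, F ψ.1 := fun F =>
      Finset.sum_subtype _ (fun ψ => by simp) F
    rw [e] at h hz
    rw [h, Finset.sum_congr rfl (g := fun ψ : X₀ =>
      bb χ * ((ψ.1 y : ℂˣ) : ℂ) + δ * (ind (cls ψ) χ * ((ψ.1 y : ℂˣ) : ℂ))) (fun ψ _ => by rw [hmlt' χ hχ ψ]; ring),
      Finset.sum_add_distrib, ← Finset.mul_sum, ← Finset.mul_sum]
    simp only [hcc]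
    linear_combination bb χ * hz
  have hneg : ∀ i χ, χ ≠ f i → ind i χ = 0 := fun i χ h => if_neg h
  have hposi : ∀ i, ind i (f i) = 1 := fun i => if_pos rfl
  have hindf : ∀ i k, ind i (f k) = if k = i then 1 else 0 := fun i k => by
    simp only [ind]; exact if_congr hfinj.eq_iff rfl rfl
  have hdiff : ∀ χ ∈ S, ∀ i, D.mlt χ 1 - D.mlt χ (rep i).1 = cc χ - δ * ind i χ := fun χ hχ i => by
    rw [hmlt' χ hχ (rep i), hrep]; simp only [hcc]; ring
  -- equal constants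
  have hd : ∀ i, cc (f i) = cc (f o₀) := by
    intro i
    have h1 := D.gram 1 (rep o₀).1 (rep i).1
    have h2 := D.gram 1 (rep o₀).1 (rep o₀).1
    rw [D.cnt_zero (fun hR => (rep i).2 (D.rel_one hR)), sub_div, hI, Nat.cast_zero, zero_div] at h1
    rw [D.cnt_zero (fun hR => (rep o₀).2 (D.rel_one hR)), sub_div, hI, Nat.cast_zero, zero_div] at h2
    have h3 := congrArg₂ (· - ·) h1 h2
    rw [← Finset.sum_sub_distrib] at h3
    have h4 : ∑ χ ∈ S, (cc χ - δ * ind o₀ χ) * ((δ : ℂ) * (ind i χ - ind o₀ χ)) =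
        0 - (if o₀ = i then 1 else 0) - (0 - 1) := by
      rw [if_pos rfl] at h3
      rw [← h3]
      refine Finset.sum_congr rfl fun χ hχ => ?_
      rw [hdiff χ hχ, hmlt' χ hχ (rep i), hmlt' χ hχ (rep o₀), hrep, hrep]
      ring
    simp only [mul_sub, Finset.sum_sub_distrib, ind, mul_ite, mul_one, mul_zero, Finset.sum_ite_eq', hfS,
      if_true, hfinj.eq_iff] at h4
    by_cases h : o₀ = i
    · rw [← h]
    · simp only [if_neg (Ne.symm h), if_neg h] at h4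
      refine mul_left_cancel₀ hδ0 ?_
      linear_combination h4 - hδ2
  set d := a (f o₀) with hddef
  -- the sets
  set Y : Set (IrrCharacter G) := Set.range f with hY
  set X : Set (IrrCharacter G) := principalBlock M G \ Y with hX
  have hB : ∀ χ, χ ∈ S ↔ χ ∈ principalBlock M G := fun χ => by simp [hS]
  have hYB : Y ⊆ principalBlock M G := by rintro _ ⟨i, rfl⟩; exact (hB _).1 (hfS i)
  set XF := S.filter (fun χ => χ ∉ Y) with hXF
  have hXsum : ∀ {R : Type} [AddCommMonoid R] (F : IrrCharacter G → R), ∑ᶠ χ ∈ X, F χ = ∑ χ ∈ XF, F χ := by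
    intro R _ F
    exact finsum_mem_eq_sum_of_inter_support_eq F (by ext χ; simp [hX, hXF, hB])
  have hsplit : ∀ F : IrrCharacter G → ℂ, ∑ χ ∈ S, F χ = (∑ χ ∈ XF, F χ) + ∑ i, F (f i) := by
    intro F
    rw [← Finset.sum_filter_add_sum_filter_not S (fun χ => χ ∉ Y)]
    congr 1
    refine (Finset.sum_bij (fun i _ => f i) (fun i _ => Finset.mem_filter.2 ⟨hfS i, not_not.2 ⟨i, rfl⟩⟩)
      (fun i _ k _ h => hfinj h) (fun χ hχ => ?_) (fun i _ => rfl)).symm
    obtain ⟨i, hi⟩ := not_not.1 (Finset.mem_filter.1 hχ).2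
    exact ⟨i, Finset.mem_univ _, hi⟩
  have hXind : ∀ χ ∈ XF, ∀ i, ind i χ = 0 := fun χ hχ i =>
    hneg i χ fun h => (Finset.mem_filter.1 hχ).2 ⟨i, h.symm⟩
  have hone : (oneChar : IrrCharacter G) ∈ XF := by
    have h1 : (oneChar : IrrCharacter G) ∈ S := (hB _).2 (oneChar_mem_principal D.hM)
    refine Finset.mem_filter.2 ⟨h1, ?_⟩
    rintro ⟨i, hi⟩
    obtain ⟨j, hj⟩ : ∃ j, j ≠ i := by
      by_cases h : o₀ = i
      · exact ⟨o₁, fun e => ho (h.trans e.symm)⟩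
      · exact ⟨o₀, h⟩
    have h2 := hcoef' i j oneChar
    rw [if_pos h1, D.mlt_oneChar, D.mlt_oneChar, if_neg (rep i).2, if_neg (rep j).2, ← hi, hposi,
      hneg j _ fun e => hj (hfinj e).symm, sub_zero, sub_zero, mul_one] at h2
    exact hδ0 h2.symm
  have hsec : ∀ χ ∈ XF, ∀ z y : G, IsPPart p z y → y ∈ (P : Subgroup G) → y ≠ 1 → (χ : G → ℂ) z = (a χ : ℂ) := by
    intro χ hχ z y hzy hy hy1
    have hS' := (Finset.mem_filter.1 hχ).1
    rw [D.apply_section ((hB χ).1 hS') hzy hy hy1, hval χ hS' ⟨y, hy⟩ (fun h => hy1 (congrArg Subtype.val h)), ha,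
      Finset.sum_eq_zero (fun ψ _ => by rw [hXind χ hχ, zero_mul]), mul_zero, add_zero]
  have hnz : ∀ χ ∈ XF, a χ ≠ 0 := by
    intro χ hχ h0
    have hS' := (Finset.mem_filter.1 hχ).1
    have hzero : ∀ z : G, p ∣ orderOf z → (χ : G → ℂ) z = 0 := fun z hz => by
      obtain ⟨c, y, hcy, hy, hy1⟩ := D.exists_conj_section hz
      have h := hsec χ hχ _ y hcy hy hy1
      rwa [isClassFunction (isCharacter_of_irr χ.2) z c, h0, Int.cast_zero] at h
    have hne : (χ : G → ℂ) ≠ (fun _ => 1) := fun he => by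
      obtain ⟨y, hy⟩ : ∃ y : (P : Subgroup G), y ≠ 1 := by
        haveI : Nontrivial (P : Subgroup G) := Finite.one_lt_card_iff_nontrivial.1
          (show 1 < Nat.card P by omega)
        exact exists_ne 1
      have h := hsec χ hχ _ _ (D.ppart_self y.2) y.2 fun h => hy (Subtype.ext h)
      rw [he, h0, Int.cast_zero] at h
      exact one_ne_zero h
    refine (mem_principal_iff_regTotal D.hM χ).1 ((hB χ).1 hS') ?_
    have h : regTotal p (χ : G → ℂ) = ∑ g, (χ : G → ℂ) g := Finset.sum_congr rfl fun g _ => by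
      split_ifs with hg
      · rw [hzero g hg]
      · rfl
    rw [h, sum_irr_eq_zero χ.2 hne]
  have hnorm : (d - δ) ^ 2 + ((r : ℤ) - 1) * d ^ 2 + ∑ χ ∈ XF, a χ ^ 2 = (m : ℤ) + 1 := by
    have h1 := D.gram 1 (rep o₀).1 1
    have h2 := D.gram 1 (rep o₀).1 (rep o₀).1
    rw [D.cnt_one, D.cnt_zero (fun hR => (rep o₀).2 (D.rel_one (D.rel_symm hR))), sub_div, Nat.cast_zero, zero_div,
      hN, Nat.cast_mul, mul_div_assoc, div_self hc0, mul_one, sub_zero] at h1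
    rw [D.cnt_zero (fun hR => (rep o₀).2 (D.rel_one hR)), sub_div, hI, if_pos rfl, Nat.cast_zero, zero_div] at h2
    have h3 : ∑ χ ∈ S, (cc χ - δ * ind o₀ χ) ^ 2 = (m : ℂ) - (0 - 1) := by
      rw [← h1, ← h2, ← Finset.sum_sub_distrib]
      exact Finset.sum_congr rfl fun χ hχ => by rw [← hdiff χ hχ]; ring
    rw [hsplit, Finset.sum_congr rfl (g := fun χ => ((a χ : ℂ)) ^ 2) (fun χ hχ => by
      rw [hXind χ hχ, ha]; ring), ← Finset.add_sum_erase _ _ (Finset.mem_univ o₀), hposi, ha,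
      Finset.sum_congr (s₁ := Finset.univ.erase o₀) rfl (g := fun _ => ((d : ℂ)) ^ 2) (fun i hi => by
        rw [hd i, ha, hindf, if_neg (Finset.mem_erase.1 hi).1, mul_zero, sub_zero]),
      Finset.sum_const, Finset.card_erase_of_mem (Finset.mem_univ _), Finset.card_univ, nsmul_eq_mul, mul_one,
      ← hddef, Nat.cast_sub (by omega : 1 ≤ r), Nat.cast_one] at h3
    have h4 : ((((d - δ) ^ 2 + ((r : ℤ) - 1) * d ^ 2 + ∑ χ ∈ XF, a χ ^ 2 : ℤ)) : ℂ) = (((m : ℤ) + 1 : ℤ) : ℂ) := by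
      push_cast
      linear_combination h3
    exact_mod_cast h4
  have hreg : ∀ i, ∀ g : G, ¬ p ∣ orderOf g → (f i : G → ℂ) g = (f o₀ : G → ℂ) g := by
    intro i g hg
    have h := D.regular_relation (rep i).1 (rep o₀).1 hg
    rw [Finset.sum_congr rfl (g := fun χ : IrrCharacter G => (δ : ℂ) * (ind i χ - ind o₀ χ) * (χ : G → ℂ) g)
      (fun χ hχ => by rw [← hcoef', if_pos hχ])] at h
    simp only [mul_assoc, ← Finset.mul_sum, sub_mul, Finset.sum_sub_distrib, ind, ite_mul, one_mul, zero_mul,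
      Finset.sum_ite_eq'] at h
    rw [if_pos (hfS i), if_pos (hfS o₀)] at h
    exact sub_eq_zero.1 ((mul_eq_zero.1 h).resolve_left hδ0)
  refine ⟨Nat.card X, X, Y, ?_, (Set.union_sdiff_cancel' (subset_refl Y) hYB).symm.trans (Set.union_comm _ _),
    disjoint_sdiff_self_left, rfl, ?_, ⟨oneChar, ?_, rfl⟩, a, d, δ,
    fun ψ => if h : ψ = 1 then f o₀ else f (cls ⟨ψ, h⟩), hδ, ?_, ?_, ?_, ?_, ?_, ?_, ?_, ?_⟩
  · have e : Nat.card X = XF.card := by
      rw [Nat.card_eq_fintype_card, ← Set.toFinset_card]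
      exact congrArg Finset.card (by ext χ; simp [hX, hXF, hB])
    rw [e]
    have h1 : (XF.card : ℤ) ≤ ∑ χ ∈ XF, a χ ^ 2 := by
      rw [Finset.card_eq_sum_ones, Nat.cast_sum]
      exact Finset.sum_le_sum fun χ hχ => by
        have := pow_pos (abs_pos.2 (hnz χ hχ)) 2
        rw [sq_abs] at this
        push_cast
        omega
    have h2 : 1 ≤ (d - δ) ^ 2 + ((r : ℤ) - 1) * d ^ 2 := by
      by_cases h0 : d = 0
      · rcases hδ with rfl | rfl <;> simp [h0]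
      · have h3 : 0 < d ^ 2 := by positivity
        nlinarith [sq_nonneg (d - δ), (show (2 : ℤ) ≤ r by exact_mod_cast hr2)]
    omega
  · rw [hY, Nat.card_range_of_injective hfinj, Nat.card_eq_fintype_card]; exact hrdiv.symm
  · exact ⟨(hB _).1 (Finset.mem_filter.1 hone).1, (Finset.mem_filter.1 hone).2⟩
  · intro χ hχ
    have hχ' : χ ∈ XF := Finset.mem_filter.2 ⟨(hB χ).2 hχ.1, hχ.2⟩
    exact ⟨hnz χ hχ', hsec χ hχ'⟩
  · intro ψ hψ; simp only [dif_neg hψ]; exact ⟨_, rfl⟩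
  · rintro _ ⟨i, rfl⟩
    exact ⟨(rep i).1, (rep i).2, by simp only [dif_neg (rep i).2, Subtype.coe_eta, hrep]⟩
  · intro ψ ψ' hψ hR
    have hψ' : ψ' ≠ 1 := fun h => hψ (D.rel_one (D.rel_symm (h ▸ hR)))
    simp only [dif_neg hψ, dif_neg hψ']
    exact congrArg f ((hcls _ _).2 (D.rel_symm hR))
  · intro ψ hψ z y hzy hy1
    simp only [dif_neg hψ]
    rw [D.apply_section ((hB _).1 (hfS _)) hzy y.2 hy1, hval _ (hfS _) y (fun h => hy1 (congrArg Subtype.val h)),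
      hd, ha, ← hddef]
    congr 2
    rw [finsum_mem_eq_toFinset_sum]
    rw [Finset.sum_congr rfl (g := fun φ : X₀ => if cls ⟨ψ, hψ⟩ = cls φ then ((φ.1 y : ℂˣ) : ℂ) else 0)
      (fun φ _ => by rw [hindf, ite_mul, one_mul, zero_mul]), ← Finset.sum_filter]
    refine Finset.sum_bij (fun φ _ => φ.1) (fun φ hφ => ?_) (fun u _ v _ h => Subtype.ext h) (fun φ hφ => ?_)
      (fun _ _ => rfl)
    · exact Set.mem_toFinset.2 ((hcls _ _).1 (Finset.mem_filter.1 hφ).2)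
    · have hR : D.Rel ψ φ := by rw [Set.mem_toFinset] at hφ; exact hφ
      exact ⟨⟨φ, fun h => hψ (D.rel_one (D.rel_symm (h ▸ hR)))⟩,
        Finset.mem_filter.2 ⟨Finset.mem_univ _, (hcls _ _).2 hR⟩, rfl⟩
  · rw [hXsum]
    have e : ((Nat.card P : ℤ) - 1) / (m : ℤ) = (r : ℤ) := by
      have h1 : ((Nat.card P - 1 : ℕ) : ℤ) = (Nat.card P : ℤ) - 1 := by
        rw [Nat.cast_sub Nat.card_pos]; rfl
      rw [← h1, ← hrdiv, Int.natCast_div]
    rw [e]
    exact hnorm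
  · rintro _ ⟨i, rfl⟩ _ ⟨k, rfl⟩ g hg
    rw [hreg i g hg, hreg k g hg]
  · rintro _ ⟨i, rfl⟩ g hg
    rw [hXsum, hrdiv, hreg i g hg]
    have h := D.regular_relation 1 (rep o₀).1 hg
    rw [Finset.sum_congr rfl (g := fun χ : IrrCharacter G => (cc χ - δ * ind o₀ χ) * (χ : G → ℂ) g)
      (fun χ hχ => by rw [← hdiff χ hχ]), hsplit,
      Finset.sum_congr rfl (g := fun χ : IrrCharacter G => (a χ : ℂ) * (χ : G → ℂ) g) (fun χ hχ => by
        rw [hXind χ hχ, ha, mul_zero, sub_zero]),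
      Finset.sum_congr rfl (g := fun k => ((d : ℂ) - δ * ind o₀ (f k)) * (f o₀ : G → ℂ) g) (fun k _ => by
        rw [hd k, ha, hreg k g hg]), ← Finset.sum_mul, Finset.sum_sub_distrib, Finset.sum_const,
      Finset.card_univ, nsmul_eq_mul, ← Finset.mul_sum] at h
    rw [Finset.sum_eq_single_of_mem o₀ (Finset.mem_univ _) (fun k _ hk => by rw [hindf, if_neg hk]), hposi,
      mul_one] at h
    linear_combination h

end CfsgLib.Blocks.FpfExc
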