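import Cfsg.Agent.Blocks.FpfExc.Structure

/-!
# The case of a normalizer quotient of order three, and products of two conjugate involutions
-/

set_option autoImplicit false
set_option linter.style.haveILetI false
set_option linter.unusedSectionVars false

namespace CfsgLib.Blocks.FpfExc

open Cfsg CfsgLib CfsgLib.CharBasics CfsgLib.Blocks
open scoped ComplexConjugate

variable {G : Type*} [Group G] [Finite G] {p : ℕ} [Fact p.Prime] {M : Ideal AlgInt} {P : Sylow p G}

/-- If products of two conjugates of `t` avoid the section of `y`, the class square vanishes there in the block. -/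
theorem class_square_vanish (hM : IsPModular p M) [Fintype (IrrCharacter G)]
    {B : Set (IrrCharacter G)} [DecidablePred (· ∈ B)] (hB : IsPBlock M B) {t y : G} (ht : t⁻¹ = t) (hy : IsPPart p y y)
    (hno : ∀ w z : G, IsPPart p w z → IsConj y z → ∀ h : G, ¬ IsConj (h * t * h⁻¹ * w) t) :
    ∑ χ ∈ Finset.univ.filter (· ∈ B), ((χ : G → ℂ) t ^ 2 / (χ : G → ℂ) 1) * (χ : G → ℂ) y = 0 := by
  classical
  haveI : Fintype G := Fintype.ofFinite G
  have htc : ∀ χ : IrrCharacter G, conj ((χ : G → ℂ) t) = (χ : G → ℂ) t := fun χ => by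
    rw [← apply_inv (isCharacter_of_irr χ.2), ht]
  set Θ : G → ℂ := fun w => ∑ χ : IrrCharacter G, ((χ : G → ℂ) t ^ 2 / (χ : G → ℂ) 1) * (χ : G → ℂ) w with hΘ
  have hΘ0 : ∀ w z : G, IsPPart p w z → IsConj y z → Θ w = 0 := by
    intro w z hwz hyz
    have e : (Nat.card G : ℂ) * Θ w = 0 := by
      calc (Nat.card G : ℂ) * Θ w
          = ∑ χ : IrrCharacter G, (χ : G → ℂ) t * ∑ h : G, (χ : G → ℂ) (h * t * h⁻¹ * w) := by
            rw [hΘ, Finset.mul_sum]
            refine Finset.sum_congr rfl fun χ _ => ?_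
            have h := sum_conj_apply_mul χ.2 t w
            have h1 := apply_one_ne_zero χ.2
            field_simp
            linear_combination -((χ : G → ℂ) t) * h
        _ = ∑ h : G, ∑ χ : IrrCharacter G, (χ : G → ℂ) (h * t * h⁻¹ * w) * conj ((χ : G → ℂ) t) := by
            simp only [Finset.mul_sum, htc]
            rw [Finset.sum_comm]
            exact Finset.sum_congr rfl fun h _ => Finset.sum_congr rfl fun χ _ => by ring
        _ = 0 := Finset.sum_eq_zero fun h _ => by rw [sum_col, if_neg (hno w z hwz hyz h)]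
    exact (mul_eq_zero.1 e).resolve_left (Nat.cast_ne_zero.2 Nat.card_pos.ne')
  have hsec := blockPart_eq_zero hM (x := y) hΘ0 hB hy (IsConj.refl _)
  rw [← hsec, ZStar.blockPart_apply, ← Finset.sum_filter]
  refine Finset.sum_congr rfl fun χ _ => ?_
  have e : Θ = ∑ ψ : IrrCharacter G, ((ψ : G → ℂ) t ^ 2 / (ψ : G → ℂ) 1) • (ψ : G → ℂ) := by
    funext w; simp [hΘ, Finset.sum_apply]
  rw [e, classInner_sum_left, Finset.sum_eq_single χ
    (fun ψ _ hne => by rw [classInner_smul_left, classInner_ne ψ.2 χ.2 (fun h => hne (Subtype.ext h)), mul_zero])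
    (fun h => absurd (Finset.mem_univ χ) h), classInner_smul_left, classInner_self χ.2, mul_one]

/-- Both factors of a product of two involutions invert its `p`-part. -/
theorem inverts_ppart (hp : p.Prime) {t t' w z : G} (ht : t * t = 1) (ht' : t' * t' = 1) (hw : t * w = t')
    (hz : IsPPart p w z) : t * z * t⁻¹ = z⁻¹ ∧ t' * z * t'⁻¹ = z⁻¹ := by
  haveI : Fintype G := Fintype.ofFinite G
  have hw' : w = t * t' := by rw [← hw, ← mul_assoc, ht, one_mul]
  have hti : t⁻¹ = t := inv_eq_of_mul_eq_one_right ht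
  have hti' : t'⁻¹ = t' := inv_eq_of_mul_eq_one_right ht'
  have h1 : t * w * t⁻¹ = w⁻¹ := by rw [hw, hti, hw', mul_inv_rev, hti, hti']
  have h2 : t' * w * t'⁻¹ = w⁻¹ := by
    rw [hti', hw', mul_inv_rev, hti, hti', mul_assoc, mul_assoc, ht', mul_one]
  obtain ⟨v, hzv, hcm, ⟨k, hk⟩, hv⟩ := hz
  have hzi : IsPPart p w⁻¹ z⁻¹ := ⟨v⁻¹, by rw [← hzv, mul_inv_rev, (hcm.inv_inv).eq], hcm.inv_inv,
    ⟨k, by rw [orderOf_inv, hk]⟩, by rwa [orderOf_inv]⟩
  exact ⟨isPPart_unique hp (by simpa only [h1] using isPPart_conj ⟨v, hzv, hcm, ⟨k, hk⟩, hv⟩ t) hzi,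
    isPPart_unique hp (by simpa only [h2] using isPPart_conj ⟨v, hzv, hcm, ⟨k, hk⟩, hv⟩ t') hzi⟩

/-- The centralizer is normal in the normalizer. -/
theorem Setup.normal_cm (_D : Setup M P) : ((Cm P).subgroupOf (Nm P)).Normal := ⟨fun c hc x => by
    rw [Subgroup.mem_subgroupOf, Subgroup.mem_centralizer_iff] at hc ⊢
    intro w hw
    simp only [Subgroup.coe_mul, Subgroup.coe_inv]
    have hw' : (x : G)⁻¹ * w * (x : G) ∈ (P : Subgroup G) := by
      have := (Subgroup.mem_normalizer_iff.1 (inv_mem x.2) w).1 hw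
      rwa [inv_inv] at this
    have := hc _ hw'
    calc w * ((x : G) * c * (x : G)⁻¹) = (x : G) * ((x : G)⁻¹ * w * x * c) * (x : G)⁻¹ := by group
      _ = (x : G) * (c * ((x : G)⁻¹ * w * x)) * (x : G)⁻¹ := by rw [this]
      _ = _ := by group⟩

/-- A generator of the normalizer quotient of order three. -/
theorem Setup.exists_gen (D : Setup M P) (h3 : (Cm P).relIndex (Nm P) = 3) :
    ∃ g : Nm P, (g : G) ∉ Cm P ∧ (g : G) ^ 3 ∈ Cm P ∧
      ∀ x : Nm P, ∃ i : ℕ, i < 3 ∧ ((g ^ i)⁻¹ * x : Nm P).1 ∈ Cm P := by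
  classical
  have hidx : ((Cm P).subgroupOf (Nm P)).index = 3 := h3
  haveI := D.normal_cm
  haveI : Fact (Nat.Prime 3) := ⟨Nat.prime_three⟩
  have hcard : Nat.card (Nm P ⧸ (Cm P).subgroupOf (Nm P)) = 3 := by
    rw [← Subgroup.index_eq_card]; exact hidx
  haveI : Nontrivial (Nm P ⧸ (Cm P).subgroupOf (Nm P)) := Finite.one_lt_card_iff_nontrivial.1 (by omega)
  obtain ⟨q, hq⟩ := exists_ne (1 : Nm P ⧸ (Cm P).subgroupOf (Nm P))
  obtain ⟨g, rfl⟩ := QuotientGroup.mk'_surjective _ q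
  refine ⟨g, fun h => hq ((QuotientGroup.eq_one_iff g).2 h), ?_, fun x => ?_⟩
  · have h1 := Subgroup.pow_index_mem ((Cm P).subgroupOf (Nm P)) g
    rw [hidx, Subgroup.mem_subgroupOf] at h1
    exact h1
  · have hx : (QuotientGroup.mk' ((Cm P).subgroupOf (Nm P)) x) ∈ Subgroup.zpowers (QuotientGroup.mk' _ g) :=
      mem_zpowers_of_prime_card hcard hq
    rw [mem_zpowers_iff_mem_range_orderOf] at hx
    obtain ⟨i, hi, he⟩ := Finset.mem_image.1 hx
    rw [orderOf_eq_prime (show (QuotientGroup.mk' ((Cm P).subgroupOf (Nm P)) g) ^ 3 = 1 by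
      rw [← hcard]; exact pow_card_eq_one') hq, Finset.mem_range] at hi
    refine ⟨i, hi, ?_⟩
    have h2 : (QuotientGroup.mk' ((Cm P).subgroupOf (Nm P))) ((g ^ i)⁻¹ * x) = 1 := by
      rw [map_mul, map_inv, map_pow, he, inv_mul_cancel]
    exact (QuotientGroup.eq_one_iff (N := (Cm P).subgroupOf (Nm P)) ((g ^ i)⁻¹ * x)).1 h2

/-- Elements of `P` inverted inside the group are involutions when the quotient has order three. -/
theorem Setup.sq_eq_one_of_real (D : Setup M P) (h3 : (Cm P).relIndex (Nm P) = 3) {y : G}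
    (hy : y ∈ (P : Subgroup G)) (hconj : IsConj y y⁻¹) : y * y = 1 := by
  by_cases hy1 : y = 1
  · simp [hy1]
  obtain ⟨n, hn, he⟩ := D.fusion hy (inv_mem hy) hconj
  have h2 : n ^ 2 ∈ Cm P := by
    rw [← D.fpf y hy hy1]
    refine ⟨Subgroup.mem_centralizer_singleton_iff.2 (mul_inv_eq_iff_eq_mul.1 ?_), pow_mem hn 2⟩
    calc n ^ 2 * y * (n ^ 2)⁻¹ = n * (n * y * n⁻¹) * n⁻¹ := by rw [sq]; group
      _ = n * y⁻¹ * n⁻¹ := by rw [he]
      _ = (n * y * n⁻¹)⁻¹ := by group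
      _ = y := by rw [he, inv_inv]
  obtain ⟨g, -, hg3, hgen⟩ := D.exists_gen h3
  haveI : ((Cm P).subgroupOf (Nm P)).FiniteIndex := inferInstance
  obtain ⟨i, hi, hc⟩ := hgen ⟨n, hn⟩
  have hnC : n ∈ Cm P := by
    have hidx : ((Cm P).subgroupOf (Nm P)).index = 3 := h3
    have h3' : n ^ 3 ∈ Cm P := by
      haveI := D.normal_cm
      have h1 := Subgroup.pow_index_mem ((Cm P).subgroupOf (Nm P)) ⟨n, hn⟩
      rw [hidx, Subgroup.mem_subgroupOf] at h1
      exact h1
    have : n = n ^ 3 * (n ^ 2)⁻¹ := by rw [pow_succ]; group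
    rw [this]
    exact mul_mem h3' (inv_mem h2)
  have := Subgroup.mem_centralizer_iff.1 hnC y hy
  rw [← this, mul_inv_cancel_right] at he
  nth_rewrite 2 [he]
  exact mul_inv_cancel y

/-- Three divides `|P| - 1`. -/
theorem Setup.three_dvd (D : Setup M P) (h3 : (Cm P).relIndex (Nm P) = 3) : 3 ∣ Nat.card P - 1 := by
  classical
  haveI : Fintype (P : Subgroup G) := Fintype.ofFinite _
  haveI : Fact (Nat.Prime 3) := ⟨Nat.prime_three⟩
  obtain ⟨g, hg, hg3, -⟩ := D.exists_gen h3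
  have hmem : ∀ (h : Nm P) (w : (P : Subgroup G)), (h : G) * w * (h : G)⁻¹ ∈ (P : Subgroup G) :=
    fun h w => (Subgroup.mem_normalizer_iff.1 h.2 _).1 w.2
  let σ : Equiv.Perm ↥(P : Subgroup G) :=
    { toFun := fun w => ⟨_, hmem g w⟩
      invFun := fun w => ⟨_, hmem g⁻¹ w⟩
      left_inv := fun w => Subtype.ext (by simp [mul_assoc])
      right_inv := fun w => Subtype.ext (by simp [mul_assoc]) }
  have hσ : σ ^ 3 ^ 1 = 1 := by
    ext w
    show ((σ ^ 3) w : G) = w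
    rw [pow_succ, pow_two, Equiv.Perm.mul_apply, Equiv.Perm.mul_apply]
    show (g : G) * ((g : G) * ((g : G) * w * (g : G)⁻¹) * (g : G)⁻¹) * (g : G)⁻¹ = w
    calc (g : G) * ((g : G) * ((g : G) * w * (g : G)⁻¹) * (g : G)⁻¹) * (g : G)⁻¹
        = (g : G) ^ 3 * w * ((g : G) ^ 3)⁻¹ := by rw [pow_succ, pow_two]; group
      _ = w := by rw [← Subgroup.mem_centralizer_iff.1 hg3 w w.2, mul_inv_cancel_right]
  have h := Equiv.Perm.card_compl_support_modEq hσ
  have hsupp : σ.supportᶜ = {1} := by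
    ext w
    simp only [Finset.mem_compl, Equiv.Perm.mem_support, not_not, Finset.mem_singleton]
    constructor
    · intro hw
      by_contra hw1
      refine hg ?_
      rw [← D.fpf w w.2 fun e => hw1 (Subtype.ext e)]
      exact ⟨Subgroup.mem_centralizer_singleton_iff.2 (mul_inv_eq_iff_eq_mul.1 (congrArg Subtype.val hw)), g.2⟩
    · rintro rfl; exact Subtype.ext (by simp [σ])
  rw [hsupp, Finset.card_singleton, ← Nat.card_eq_fintype_card] at h
  exact (Nat.modEq_iff_dvd' Nat.card_pos).1 h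

/-- The orbit sum at an involution of `P` is three or minus one. -/
theorem Setup.orbit_sum_sq (D : Setup M P) (h3 : (Cm P).relIndex (Nm P) = 3) {t : ↥(P : Subgroup G)}
    (ht : t * t = 1) {ψ : ↥(P : Subgroup G) →* ℂˣ} (hψ : ψ ≠ 1) :
    (∑ᶠ ψ' ∈ {ψ' : ↥(P : Subgroup G) →* ℂˣ | D.Rel ψ ψ'}, ((ψ' t : ℂˣ) : ℂ)) ^ 2 =
      3 + 2 * ∑ᶠ ψ' ∈ {ψ' : ↥(P : Subgroup G) →* ℂˣ | D.Rel ψ ψ'}, ((ψ' t : ℂˣ) : ℂ) := by
  classical
  obtain ⟨g, hg, hg3, hgen⟩ := D.exists_gen h3
  have hne : ∀ i, i = 1 ∨ i = 2 → ((g ^ i : Nm P) : G) ∉ Cm P := by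
    rintro i (rfl | rfl) h
    · exact hg (by simpa using h)
    · refine hg ?_
      have : (g : G) = (g : G) ^ 3 * ((g : G) ^ 2)⁻¹ := by rw [pow_succ]; group
      rw [this]
      exact mul_mem hg3 (inv_mem (by simpa using h))
  have hd1 : D.tw g ψ ≠ ψ := fun h => hg ((D.tw_eq_self_iff hψ g).1 h)
  have hd2 : D.tw (g ^ 2) ψ ≠ ψ := fun h => hne 2 (Or.inr rfl) ((D.tw_eq_self_iff hψ _).1 h)
  have hd3 : D.tw (g ^ 2) ψ ≠ D.tw g ψ := fun h => by
    rw [sq, D.tw_mul] at h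
    refine hd1 ?_
    have := congrArg (D.tw g⁻¹) h
    rwa [← D.tw_mul, mul_inv_cancel, D.tw_id, ← D.tw_mul, mul_inv_cancel, D.tw_id] at this
  have hset : {ψ' : ↥(P : Subgroup G) →* ℂˣ | D.Rel ψ ψ'} =
      ↑({ψ, D.tw g ψ, D.tw (g ^ 2) ψ} : Finset (↥(P : Subgroup G) →* ℂˣ)) := by
    ext φ
    simp only [Set.mem_setOf_eq, Finset.coe_insert, Finset.coe_singleton, Set.mem_insert_iff, Set.mem_singleton_iff]
    constructor
    · intro h
      obtain ⟨x, rfl⟩ := (D.rel_iff φ ψ).1 (D.rel_symm h)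
      obtain ⟨i, hi, hc⟩ := hgen x
      have e : D.tw x ψ = D.tw (g ^ i) ψ := by
        have e1 : x = g ^ i * ((g ^ i)⁻¹ * x) := by group
        rw [e1, D.tw_mul]
        refine (D.tw_eq_self_iff (fun h => hψ ?_) _).2 hc
        have := congrArg (D.tw (g ^ i)⁻¹) h
        rwa [← D.tw_mul, mul_inv_cancel, D.tw_id, D.tw_one] at this
      interval_cases i
      · left; rw [e, pow_zero, D.tw_id]
      · right; left; rw [e, pow_one]
      · right; right; exact e
    · intro h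
      refine D.rel_symm ((D.rel_iff φ ψ).2 ?_)
      rcases h with rfl | rfl | rfl
      · exact ⟨1, D.tw_id _⟩
      · exact ⟨g, rfl⟩
      · exact ⟨g ^ 2, rfl⟩
  rw [hset, finsum_mem_coe_finset, Finset.sum_insert (by simp [hd1.symm, hd2.symm]),
    Finset.sum_insert (by simp [hd3.symm]), Finset.sum_singleton]
  set u₀ := ((ψ t : ℂˣ) : ℂ) with hu₀
  have hsq : ∀ φ : ↥(P : Subgroup G) →* ℂˣ, ((φ t : ℂˣ) : ℂ) = 1 ∨ ((φ t : ℂˣ) : ℂ) = -1 := fun φ =>
    mul_self_eq_one_iff.1 (by rw [← Units.val_mul, ← map_mul, ht, map_one, Units.val_one])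
  have hmem : ∀ (h : Nm P) (w : (P : Subgroup G)), (h : G) * w * (h : G)⁻¹ ∈ (P : Subgroup G) :=
    fun h w => (Subgroup.mem_normalizer_iff.1 h.2 _).1 w.2
  set t1 : ↥(P : Subgroup G) := ⟨_, hmem g t⟩ with ht1
  set t2 : ↥(P : Subgroup G) := ⟨_, hmem (g ^ 2) t⟩ with ht2
  have hprod : t * t1 * t2 = 1 := by
    by_contra hz
    refine hg ?_
    rw [← D.fpf _ (t * t1 * t2).2 fun e => hz (Subtype.ext e)]
    refine ⟨Subgroup.mem_centralizer_singleton_iff.2 (mul_inv_eq_iff_eq_mul.1 ?_), g.2⟩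
    have ht3 : (g : G) ^ 3 * t * ((g : G) ^ 3)⁻¹ = t := by
      rw [← Subgroup.mem_centralizer_iff.1 hg3 t t.2, mul_inv_cancel_right]
    have e1 : (g : G) * ((t * t1 * t2 : ↥(P : Subgroup G)) : G) * (g : G)⁻¹ =
        (t1 : G) * t2 * ((g : G) ^ 3 * t * ((g : G) ^ 3)⁻¹) := by
      simp only [Subgroup.coe_mul, ht1, ht2, Subgroup.coe_pow, pow_succ, pow_zero, one_mul]
      group
    rw [e1, ht3]
    exact congrArg Subtype.val (D.comm (t1 * t2) t |>.trans (mul_assoc t t1 t2).symm)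
  have hp : u₀ * ((D.tw g ψ t : ℂˣ) : ℂ) * ((D.tw (g ^ 2) ψ t : ℂˣ) : ℂ) = 1 := by
    show ((ψ t : ℂˣ) : ℂ) * ((ψ t1 : ℂˣ) : ℂ) * ((ψ t2 : ℂˣ) : ℂ) = 1
    rw [← Units.val_mul, ← Units.val_mul, ← map_mul, ← map_mul, hprod, map_one, Units.val_one]
  rcases hsq ψ with h0 | h0 <;> rcases hsq (D.tw g ψ) with h1 | h1 <;> rcases hsq (D.tw (g ^ 2) ψ) with h2 | h2 <;>
    rw [hu₀, h0, h1, h2] at hp ⊢ <;> first | (norm_num at hp; done) | norm_num

/-- Involutions of `P` whose product with a conjugate lands in a section lie in one orbit with it. -/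
theorem Setup.exists_no_product (D : Setup M P) (hp : p = 2) (h3 : (Cm P).relIndex (Nm P) = 3) (hP4 : 4 < Nat.card P)
    {t : G} (ht : t ∈ (P : Subgroup G)) (ht2 : t * t = 1) (ht1 : t ≠ 1) :
    ∃ w ∈ (P : Subgroup G), w ≠ 1 ∧ ¬ IsConj t w ∧
      ∀ v z : G, IsPPart p v z → IsConj w z → ∀ h : G, ¬ IsConj (h * t * h⁻¹ * v) t := by
  classical
  subst hp
  haveI : Fintype G := Fintype.ofFinite G
  haveI : Fintype (P : Subgroup G) := Fintype.ofFinite _
  obtain ⟨g, hg, hg3, hgen⟩ := D.exists_gen h3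
  set O : Finset G := {t, (g : G) * t * (g : G)⁻¹, (g : G) ^ 2 * t * ((g : G) ^ 2)⁻¹} with hO
  have hfus : ∀ z ∈ (P : Subgroup G), IsConj t z → z ∈ O := by
    intro z hz hc
    obtain ⟨n, hn, rfl⟩ := D.fusion ht hz hc
    obtain ⟨i, hi, hcm⟩ := hgen ⟨n, hn⟩
    have hcm' : ((g : G) ^ i)⁻¹ * n ∈ Cm P := by simpa using hcm
    have e : n * t * n⁻¹ = (g : G) ^ i * t * ((g : G) ^ i)⁻¹ := by
      have hc := Subgroup.mem_centralizer_iff.1 hcm' t ht
      calc n * t * n⁻¹ = (g : G) ^ i * ((((g : G) ^ i)⁻¹ * n) * t) * n⁻¹ := by group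
        _ = (g : G) ^ i * (t * (((g : G) ^ i)⁻¹ * n)) * n⁻¹ := by rw [hc]
        _ = _ := by group
    rw [e, hO]
    interval_cases i <;> simp
  have hO2 : ∀ a ∈ O, ∀ b ∈ O, a * b ∈ insert 1 O := by
    have hPm : ∀ a ∈ O, a ∈ (P : Subgroup G) ∧ a * a = 1 := by
      intro a ha
      simp only [hO, Finset.mem_insert, Finset.mem_singleton] at ha
      rcases ha with rfl | rfl | rfl
      · exact ⟨ht, ht2⟩
      · exact ⟨(Subgroup.mem_normalizer_iff.1 g.2 _).1 ht, by rw [conj_mul, ht2]; group⟩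
      · exact ⟨(Subgroup.mem_normalizer_iff.1 (pow_mem g.2 2) _).1 ht, by rw [conj_mul, ht2]; group⟩
    set t1 := (g : G) * t * (g : G)⁻¹ with htt1
    set t2 := (g : G) ^ 2 * t * ((g : G) ^ 2)⁻¹ with htt2
    have m1 := hPm t1 (by simp [hO])
    have m2 := hPm t2 (by simp [hO])
    have hprod : t * t1 * t2 = 1 := by
      by_contra hz
      refine hg ?_
      rw [← D.fpf _ (mul_mem (mul_mem ht m1.1) m2.1) hz]
      refine ⟨Subgroup.mem_centralizer_singleton_iff.2 (mul_inv_eq_iff_eq_mul.1 ?_), g.2⟩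
      have ht3 : (g : G) ^ 3 * t * ((g : G) ^ 3)⁻¹ = t := by
        rw [← Subgroup.mem_centralizer_iff.1 hg3 t ht, mul_inv_cancel_right]
      have e1 : (g : G) * (t * t1 * t2) * (g : G)⁻¹ = t1 * t2 * ((g : G) ^ 3 * t * ((g : G) ^ 3)⁻¹) := by
        simp only [htt1, htt2, pow_succ, pow_zero, one_mul]; group
      rw [e1, ht3, D.commG (mul_mem m1.1 m2.1) ht, ← mul_assoc]
    have p1 : t * t1 = t2 := by
      rw [eq_inv_of_mul_eq_one_left hprod, inv_eq_of_mul_eq_one_right m2.2]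
    have p2 : t1 * t2 = t := by
      have h := eq_inv_of_mul_eq_one_right (a := t) (b := t1 * t2) (by rw [← mul_assoc]; exact hprod)
      rw [h, inv_eq_of_mul_eq_one_right ht2]
    have p3 : t * t2 = t1 := by rw [← p1, ← mul_assoc, ht2, one_mul]
    intro a ha b hb
    have hc : ∀ a b : G, a ∈ O → b ∈ O → a * b = b * a := fun a b ha hb => D.commG (hPm a ha).1 (hPm b hb).1
    simp only [hO, Finset.mem_insert, Finset.mem_singleton] at ha hb ⊢
    rcases ha with rfl | rfl | rfl <;> rcases hb with rfl | rfl | rfl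
    · exact Or.inl ht2
    · right; right; right; exact p1
    · right; right; left; exact p3
    · right; right; right; rw [hc _ _ (by simp [hO]) (by simp [hO])]; exact p1
    · exact Or.inl m1.2
    · right; left; exact p2
    · right; right; left; rw [hc _ _ (by simp [hO]) (by simp [hO])]; exact p3
    · right; left; rw [hc _ _ (by simp [hO]) (by simp [hO])]; exact p2
    · exact Or.inl m2.2
  obtain ⟨w, hw⟩ : ∃ w : (P : Subgroup G), (w : G) ∉ insert 1 O := by
    by_contra hcon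
    push Not at hcon
    have h := Finset.card_le_card_of_injOn (s := (Finset.univ : Finset ↥(P : Subgroup G))) (fun w : (P : Subgroup G) => (w : G)) (fun w _ => hcon w)
      (fun a _ b _ h => Subtype.ext h)
    have h4 : (insert 1 O).card ≤ 4 :=
      (Finset.card_insert_le _ _).trans (Nat.succ_le_succ Finset.card_le_three)
    rw [Finset.card_univ, ← Nat.card_eq_fintype_card] at h
    exact absurd (h.trans h4) (not_le.2 hP4)
  rw [Finset.mem_insert, not_or] at hw
  refine ⟨w, w.2, hw.1, fun hc => hw.2 (hfus _ w.2 hc), fun v z hvz hwz h hc => ?_⟩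
  -- move the section to `w`
  obtain ⟨c, hcw⟩ := isConj_iff.1 hwz.symm
  have hinv : ∀ e : G, e * t * e⁻¹ * (e * t * e⁻¹) = 1 := fun e => by rw [conj_mul, ht2]; group
  set t' := c * (h * t * h⁻¹) * c⁻¹ with ht'
  set v' := c * v * c⁻¹ with hv'
  obtain ⟨e, he⟩ := isConj_iff.1 hc.symm
  set u := t' * v' with hu
  have ht'c : IsConj t t' := isConj_iff.2 ⟨c * h, by rw [ht']; group⟩
  have huc : IsConj t u := isConj_iff.2 ⟨c * e, by rw [hu, ht', hv']; calc
    c * e * t * (c * e)⁻¹ = c * (e * t * e⁻¹) * c⁻¹ := by group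
    _ = _ := by rw [he]; group⟩
  have hsq : ∀ a, IsConj t a → a * a = 1 := fun a ha => by
    obtain ⟨b, rfl⟩ := isConj_iff.1 ha; exact hinv b
  have hz' : IsPPart 2 v' (w : G) := by rw [← hcw]; exact isPPart_conj hvz c
  obtain ⟨hi1, hi2⟩ := inverts_ppart Nat.prime_two (hsq _ ht'c) (hsq _ huc) hu.symm hz'
  have hww : (w : G) * w = 1 := D.sq_eq_one_of_real h3 w.2 (isConj_iff.2 ⟨t', hi1⟩)
  rw [inv_eq_of_mul_eq_one_right hww] at hi1 hi2
  -- compare inside the centralizer of `w`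
  set H := Subgroup.centralizer ({(w : G)} : Set G) with hH
  have hle : (P : Subgroup G) ≤ H := fun b hb => Subgroup.mem_centralizer_singleton_iff.2 (D.commG hb w.2)
  set P' := P.subtype hle with hP'
  set K := pPrimeCore 2 H with hK
  haveI hKn : K.Normal := (PCore.pPrimeCore_mem 2 H).1
  have hKodd := PCore.not_dvd_card_pPrimeCore 2 H
  have ht'H : t' ∈ H := Subgroup.mem_centralizer_singleton_iff.2 (mul_inv_eq_iff_eq_mul.1 hi1)
  have huH : u ∈ H := Subgroup.mem_centralizer_singleton_iff.2 (mul_inv_eq_iff_eq_mul.1 hi2)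
  have hv'H : v' ∈ H := by
    have : v' = t'⁻¹ * u := by rw [hu, inv_mul_cancel_left]
    rw [this]; exact mul_mem (inv_mem ht'H) huH
  -- images in the complement
  have hpow : ∀ a : H, (a : G) * a = 1 → IsConj t (a : G) → ∃ b : H, (b : G) ∈ insert 1 O ∧ b⁻¹ * a ∈ K := by
    intro a ha hta
    have haP : IsPGroup 2 (Subgroup.zpowers a) := ZStar.isPGroup_zpowers Nat.prime_two (by
      have hd : orderOf a ∣ 2 ^ 1 := orderOf_dvd_of_pow_eq_one (Subtype.ext (by simpa [pow_two] using ha))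
      obtain ⟨k, -, hk⟩ := (Nat.dvd_prime_pow Nat.prime_two).1 hd
      exact ⟨k, hk⟩)
    obtain ⟨Q, hQ⟩ := haP.exists_le_sylow
    obtain ⟨q, rfl⟩ := MulAction.exists_smul_eq H P' Q
    have hmem := hQ (Subgroup.mem_zpowers a)
    rw [Sylow.coe_subgroup_smul, Subgroup.mem_pointwise_smul_iff_inv_smul_mem] at hmem
    have hb : q⁻¹ * a * q ∈ (P' : Subgroup H) := by simpa using hmem
    rw [hP', Sylow.coe_subtype, Subgroup.mem_subgroupOf] at hb
    refine ⟨q⁻¹ * a * q, Finset.mem_insert_of_mem (hfus _ hb (hta.trans (isConj_iff.2 ⟨((q : G))⁻¹, by simp⟩))), ?_⟩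
    -- the quotient is abelian
    have hquot : ∀ x : H, ∃ y : H, (y : G) ∈ (P : Subgroup G) ∧ y⁻¹ * x ∈ K := by
      have key : (P' : Subgroup H) ⊔ K = ⊤ := by
        refine Subgroup.eq_top_of_card_eq _ (Nat.dvd_antisymm (Subgroup.card_subgroup_dvd_card _) ?_)
        rw [← Nat.ordProj_mul_ordCompl_eq_self (Nat.card H) 2, ← P'.card_eq_multiplicity]
        refine Nat.Coprime.mul_dvd_of_dvd_of_dvd ?_ (Subgroup.card_dvd_of_le le_sup_left) ?_
        · rw [P'.card_eq_multiplicity]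
          exact ((Nat.prime_two.coprime_iff_not_dvd.2 (Nat.not_dvd_ordCompl Nat.prime_two Nat.card_pos.ne'))).pow_left _
        · refine dvd_trans ?_ (Subgroup.card_dvd_of_le le_sup_right)
          obtain ⟨k, hk⟩ : ∃ k, K.index = 2 ^ k := IsPGroup.iff_card.1 (show IsPGroup 2 (H ⧸ K) from by
            intro r
            obtain ⟨x, rfl⟩ := QuotientGroup.mk'_surjective _ r
            haveI : Fintype H := Fintype.ofFinite H
            obtain ⟨a', b', hab, hcm, ⟨k, hk⟩, hb', -, -⟩ := ZStar.exists_pPart Nat.prime_two x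
            refine ⟨k, ?_⟩
            rw [← map_pow, QuotientGroup.mk'_apply, QuotientGroup.eq_one_iff, ← hab, hcm.mul_pow,
              show a' ^ 2 ^ k = 1 by rw [← hk, pow_orderOf_eq_one], one_mul]
            refine Subgroup.pow_mem _ ?_ _
            obtain ⟨b'', hb'', heq⟩ := D.mem_core w.2 hw.1 (v := (b' : G))
              (Subgroup.mem_centralizer_singleton_iff.1 b'.2).symm (by rwa [Subgroup.orderOf_coe])
            rwa [Subtype.ext heq] at hb'') |>.imp fun k hk => (Subgroup.index_eq_card _).trans hk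
          have hd : Nat.card H / 2 ^ (Nat.card H).factorization 2 ∣ Nat.card K * 2 ^ k := by
            rw [← hk, Subgroup.card_mul_index]; exact Nat.ordCompl_dvd _ _
          rw [P'.card_eq_multiplicity]
          exact ((Nat.prime_two.coprime_iff_not_dvd.2
            (Nat.not_dvd_ordCompl Nat.prime_two Nat.card_pos.ne')).symm.pow_right k).dvd_of_dvd_mul_right hd
      intro x
      obtain ⟨y, hy, k, hk, rfl⟩ := Subgroup.mem_sup_of_normal_right.1 (key ▸ Subgroup.mem_top x :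
        x ∈ (P' : Subgroup H) ⊔ K)
      rw [hP', Sylow.coe_subtype, Subgroup.mem_subgroupOf] at hy
      exact ⟨y, hy, by rw [inv_mul_cancel_left]; exact hk⟩
    obtain ⟨y, hy, hyq⟩ := hquot q
    rw [← QuotientGroup.eq] at hyq
    rw [← QuotientGroup.eq]
    simp only [QuotientGroup.mk_mul, QuotientGroup.mk_inv, ← hyq]
    obtain ⟨z₀, hz₀, hzq⟩ := hquot a
    rw [← QuotientGroup.eq] at hzq
    rw [← hzq, ← QuotientGroup.mk_inv, ← QuotientGroup.mk_mul, ← QuotientGroup.mk_mul]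
    congr 1
    refine Subtype.ext ?_
    show (y : G)⁻¹ * z₀ * y = z₀
    rw [mul_assoc, D.commG hz₀ hy, inv_mul_cancel_left]
  obtain ⟨b₁, hb₁, hk₁⟩ := hpow ⟨t', ht'H⟩ (hsq _ ht'c) ht'c
  obtain ⟨b₂, hb₂, hk₂⟩ := hpow ⟨u, huH⟩ (hsq _ huc) huc
  have hvK : (⟨w, Subgroup.mem_centralizer_singleton_iff.2 rfl⟩ : H)⁻¹ * ⟨v', hv'H⟩ ∈ K := by
    obtain ⟨r, hr, hcm, -, hro⟩ := hz'
    have hrH : r ∈ H := Subgroup.mem_centralizer_singleton_iff.2 hcm.eq.symm
    obtain ⟨r', hr', heq⟩ := D.mem_core w.2 hw.1 hcm hro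
    have : (⟨w, Subgroup.mem_centralizer_singleton_iff.2 rfl⟩ : H)⁻¹ * ⟨v', hv'H⟩ = r' := by
      refine Subtype.ext ?_
      show (w : G)⁻¹ * v' = (r' : G)
      rw [← hr, inv_mul_cancel_left]; exact heq.symm
    rw [this]; exact hr'
  set wH : H := ⟨w, Subgroup.mem_centralizer_singleton_iff.2 rfl⟩ with hwH
  rw [← QuotientGroup.eq] at hk₁ hk₂ hvK
  have hfin : ((b₁ * b₂ : H) : H ⧸ K) = (wH : H ⧸ K) := by
    rw [hvK, QuotientGroup.mk_mul, hk₁, hk₂, ← QuotientGroup.mk_mul]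
    congr 1
    refine Subtype.ext ?_
    show t' * u = v'
    rw [hu, ← mul_assoc, hsq _ ht'c, one_mul]
  have hbm : ∀ b : G, b ∈ insert 1 O → b ∈ (P : Subgroup G) := fun b hb => by
    simp only [hO, Finset.mem_insert, Finset.mem_singleton] at hb
    rcases hb with rfl | rfl | rfl | rfl
    · exact one_mem _
    · exact ht
    · exact (Subgroup.mem_normalizer_iff.1 g.2 _).1 ht
    · exact (Subgroup.mem_normalizer_iff.1 (pow_mem g.2 2) _).1 ht
  have heqw : (b₁ : G) * b₂ = w := by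
    rw [QuotientGroup.eq] at hfin
    have hP'd : ((b₁ * b₂)⁻¹ * wH : H) ∈ (P' : Subgroup H) := by
      rw [hP', Sylow.coe_subtype, Subgroup.mem_subgroupOf]
      exact mul_mem (inv_mem (mul_mem (hbm _ hb₁) (hbm _ hb₂))) w.2
    have hord : orderOf ((b₁ * b₂)⁻¹ * wH) = 1 := by
      obtain ⟨k, hk⟩ := IsPGroup.iff_orderOf.1 P'.2 ⟨_, hP'd⟩
      rw [Subgroup.orderOf_mk] at hk
      have hd := Subgroup.orderOf_dvd_natCard K hfin
      rw [hk] at hd ⊢
      exact Nat.eq_one_of_dvd_coprimes ((Nat.prime_two.coprime_iff_not_dvd.2 hKodd).pow_left k) dvd_rfl hd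
    have := congrArg Subtype.val (inv_mul_eq_one.1 (orderOf_eq_one_iff.1 hord))
    simpa using this
  rcases Finset.mem_insert.1 hb₁ with h1 | h1
  · rcases Finset.mem_insert.1 hb₂ with h2 | h2
    · exact hw.1 (by rw [← heqw, h1, h2, one_mul])
    · exact hw.2 (by rw [← heqw, h1, one_mul]; exact h2)
  · rcases Finset.mem_insert.1 hb₂ with h2 | h2
    · exact hw.2 (by rw [← heqw, h2, mul_one]; exact h1)
    · rcases Finset.mem_insert.1 (hO2 _ h1 _ h2) with h | h
      · exact hw.1 (by rw [← heqw, h])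
      · exact hw.2 (by rw [← heqw]; exact h)

end CfsgLib.Blocks.FpfExc
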