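import Cfsg.Agent.Blocks.FpfExc.Three

/-!
# The shape of the principal block when the normalizer quotient has order three
-/

set_option autoImplicit false
set_option linter.style.haveILetI false
set_option linter.unusedSectionVars false

namespace CfsgLib.Blocks.FpfExc

open Cfsg CfsgLib CfsgLib.CharBasics CfsgLib.Blocks
open scoped ComplexConjugate

variable {G : Type*} [Group G] [Finite G] {p : ℕ} [Fact p.Prime] {M : Ideal AlgInt} {P : Sylow p G}

/-- Columns of elements of `P` against regular columns. -/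
theorem Setup.col_orth (D : Setup M P) [Fintype (IrrCharacter G)] [DecidablePred (· ∈ principalBlock M G)]
    {g y : G} (hg : ¬ p ∣ orderOf g) (hy : y ∈ (P : Subgroup G)) (hy1 : y ≠ 1) :
    ∑ χ ∈ Finset.univ.filter (· ∈ principalBlock M G), (χ : G → ℂ) y * (χ : G → ℂ) g = 0 := by
  haveI := Fintype.ofFinite G
  have h1 : IsPPart p g⁻¹ 1 :=
    ⟨g⁻¹, one_mul _, Commute.one_left _, ⟨0, by rw [orderOf_one, pow_zero]⟩, by rwa [orderOf_inv]⟩
  have h := block_orth_of_not_isConj D.hM isPBlock_principal (D.ppart_self hy) h1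
    (fun hc => hy1 (isConj_one_left.1 hc))
  rw [finsum_mem_eq_toFinset_sum,
    show (principalBlock M G).toFinset = Finset.univ.filter (· ∈ principalBlock M G) by ext; simp] at h
  rw [← h]
  refine Finset.sum_congr rfl fun χ _ => ?_
  rw [apply_inv (isCharacter_of_irr χ.2), Complex.conj_conj]

/-- Values on `P` are congruent to the degree modulo the order of `P`. -/
theorem Setup.card_dvd_degree_sub (D : Setup M P) (χ : IrrCharacter G) (a : ℤ)
    (ha : ∀ y ∈ (P : Subgroup G), y ≠ 1 → (χ : G → ℂ) y = (a : ℂ)) :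
    (Nat.card P : ℤ) ∣ (charDegree (χ : G → ℂ) : ℤ) - a := by
  classical
  haveI : Fintype (P : Subgroup G) := Fintype.ofFinite _
  haveI : Finite (↥(P : Subgroup G) →* ℂˣ) := finite_homs D.comm
  haveI : Nontrivial (↥(P : Subgroup G) →* ℂˣ) :=
    Finite.one_lt_card_iff_nontrivial.1 (by
      rw [card_homs D.comm]
      have h0 : 0 < Nat.card P := Nat.card_pos
      have h1 := D.nontriv
      omega)
  obtain ⟨ψ, hψ⟩ := exists_ne (1 : ↥(P : Subgroup G) →* ℂˣ)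
  obtain ⟨n, hn⟩ := D.mlt_nat χ ψ
  refine ⟨n, ?_⟩
  have hs : ∑ y : (P : Subgroup G), ((ψ y⁻¹ : ℂˣ) : ℂ) = 0 := by
    rw [← Fintype.sum_equiv (Equiv.inv _) (fun y => ((ψ y : ℂˣ) : ℂ)) _ (fun y => by simp), sum_hom,
      if_neg hψ]
  have e : ∑ y : (P : Subgroup G), (χ : G → ℂ) (y : G) * ((ψ y⁻¹ : ℂˣ) : ℂ) =
      (charDegree (χ : G → ℂ) : ℂ) - a := by
    have : ∀ y : (P : Subgroup G), (χ : G → ℂ) (y : G) * ((ψ y⁻¹ : ℂˣ) : ℂ) =
        (a : ℂ) * ((ψ y⁻¹ : ℂˣ) : ℂ) + if y = 1 then (charDegree (χ : G → ℂ) : ℂ) - a else 0 := by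
      intro y
      split_ifs with h
      · subst h; simp [apply_one (isCharacter_of_irr χ.2)]
      · rw [ha y y.2 (fun e => h (Subtype.ext e)), add_zero]
    rw [Finset.sum_congr rfl fun y _ => this y, Finset.sum_add_distrib, ← Finset.mul_sum, hs, mul_zero, zero_add,
      Finset.sum_ite_eq', if_pos (Finset.mem_univ _)]
  simp only [Setup.mlt, finsum_eq_sum_of_fintype, e] at hn
  rw [inv_mul_eq_iff_eq_mul₀ (Nat.cast_ne_zero.2 Nat.card_pos.ne')] at hn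
  exact_mod_cast hn

/-- Three signs with squares summing to three. -/
theorem three_signs {α : Type*} [DecidableEq α] {S : Finset α} {a : α → ℤ} (ha : ∀ x ∈ S, a x ≠ 0)
    {x₀ : α} (hx₀ : x₀ ∈ S) (h0 : a x₀ = 1) (hsum : ∑ x ∈ S, a x ^ 2 = 3) :
    ∃ x y, x₀ ≠ x ∧ x₀ ≠ y ∧ x ≠ y ∧ S = {x₀, x, y} ∧ (a x = 1 ∨ a x = -1) ∧ (a y = 1 ∨ a y = -1) := by
  rw [← Finset.sum_erase_add _ _ hx₀, h0] at hsum
  have hone : ∀ x ∈ S.erase x₀, (1 : ℤ) ≤ a x ^ 2 := fun x hx =>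
    Int.add_one_le_iff.2 (lt_of_le_of_ne (sq_nonneg _)
      (fun e => ha x (Finset.mem_of_mem_erase hx) (by simpa using e.symm)))
  have hcard : (S.erase x₀).card ≤ 2 := by
    have h := Finset.sum_le_sum hone
    rw [Finset.sum_const, nsmul_eq_mul, mul_one] at h
    omega
  have hsmall : ∀ x ∈ S.erase x₀, a x = 1 ∨ a x = -1 := by
    intro x hx
    have hle : a x ^ 2 ≤ 2 := by
      have h := Finset.single_le_sum (fun y _ => sq_nonneg (a y)) hx
      linarith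
    have h1 : -1 ≤ a x := by nlinarith
    have h2 : a x ≤ 1 := by nlinarith
    have h3 := ha x (Finset.mem_of_mem_erase hx)
    omega
  have hsq : ∑ x ∈ S.erase x₀, a x ^ 2 = ((S.erase x₀).card : ℤ) := by
    rw [Finset.card_eq_sum_ones, Nat.cast_sum]
    exact Finset.sum_congr rfl fun x hx => by rcases hsmall x hx with h | h <;> simp [h]
  obtain ⟨x, y, hxy, he⟩ := Finset.card_eq_two.1 (show (S.erase x₀).card = 2 by omega)
  have hx : x ∈ S.erase x₀ := by simp [he]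
  have hy : y ∈ S.erase x₀ := by simp [he]
  exact ⟨x, y, (Finset.ne_of_mem_erase hx).symm, (Finset.ne_of_mem_erase hy).symm, hxy,
    by rw [← Finset.insert_erase hx₀, he], hsmall x hx, hsmall y hy⟩

/-- The normal form. -/
theorem Setup.exists_three_form (D : Setup M P) (h3 : (Cm P).relIndex (Nm P) = 3) (hP4 : 4 < Nat.card P) :
    ∃ (χ₂ χ₃ : IrrCharacter G) (Y : Set (IrrCharacter G)) (a : IrrCharacter G → ℤ) (δ : ℤ)
      (ζ : (↥(P : Subgroup G) →* ℂˣ) → IrrCharacter G),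
      oneChar ≠ χ₂ ∧ oneChar ≠ χ₃ ∧ χ₂ ≠ χ₃ ∧
      principalBlock M G = ({oneChar, χ₂, χ₃} : Set (IrrCharacter G)) ∪ Y ∧
      Disjoint ({oneChar, χ₂, χ₃} : Set (IrrCharacter G)) Y ∧ Nat.card Y = (Nat.card P - 1) / 3 ∧
      a oneChar = 1 ∧ (a χ₂ = 1 ∨ a χ₂ = -1) ∧ (a χ₃ = 1 ∨ a χ₃ = -1) ∧ (δ = 1 ∨ δ = -1) ∧
      (∀ χ ∈ ({oneChar, χ₂, χ₃} : Set (IrrCharacter G)), ∀ z y : G, IsPPart p z y → y ∈ (P : Subgroup G) →
        y ≠ 1 → (χ : G → ℂ) z = (a χ : ℂ)) ∧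
      (∀ ψ : ↥(P : Subgroup G) →* ℂˣ, ψ ≠ 1 → ζ ψ ∈ Y) ∧
      (∀ η ∈ Y, ∃ ψ : ↥(P : Subgroup G) →* ℂˣ, ψ ≠ 1 ∧ ζ ψ = η) ∧
      (∀ ψ ψ' : ↥(P : Subgroup G) →* ℂˣ, ψ ≠ 1 → D.Rel ψ ψ' → ζ ψ' = ζ ψ) ∧
      (∀ ψ : ↥(P : Subgroup G) →* ℂˣ, ψ ≠ 1 → ∀ (z : G) (y : ↥(P : Subgroup G)), IsPPart p z (y : G) →
        (y : G) ≠ 1 → (ζ ψ : G → ℂ) z =
          (δ : ℂ) * ∑ᶠ ψ' ∈ {ψ' : ↥(P : Subgroup G) →* ℂˣ | D.Rel ψ ψ'}, ((ψ' y : ℂˣ) : ℂ)) ∧
      (∀ y ∈ (P : Subgroup G), y ≠ 1 → ∑ᶠ η ∈ Y, (η : G → ℂ) y = -(δ : ℂ)) ∧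
      (∀ η ∈ Y, ∀ g : G, ¬ p ∣ orderOf g →
        1 + (a χ₂ : ℂ) * (χ₂ : G → ℂ) g + (a χ₃ : ℂ) * (χ₃ : G → ℂ) g - (δ : ℂ) * (η : G → ℂ) g = 0) ∧
      (∀ η ∈ Y, ∀ η' ∈ Y, ∀ g : G, ¬ p ∣ orderOf g → (η : G → ℂ) g = (η' : G → ℂ) g) := by
  classical
  haveI : Fintype G := Fintype.ofFinite G
  haveI : Fintype (IrrCharacter G) := @Fintype.ofFinite _ finite_irrCharacter
  have hp : p.Prime := D.hM.1
  obtain ⟨s, X, Y, -, hB, hdisj, -, hYc, ⟨χ₁, hχ₁X, hχ₁⟩, a, d, δ, ζ, hδ, hX, hζY, hsurj, hconst, hval,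
    hnorm, heq, hreg⟩ := D.exists_structure h3 (by norm_num) (by omega)
  obtain rfl : χ₁ = oneChar := Subtype.ext hχ₁
  set r := (Nat.card P - 1) / 3 with hrdef
  have h3d := D.three_dvd h3
  have hr2 : 2 ≤ r := by omega
  have hone : ¬ p ∣ orderOf (1 : G) := by rw [orderOf_one]; exact hp.not_dvd_one
  obtain ⟨y₀, hy₀1⟩ : ∃ y : (P : Subgroup G), y ≠ 1 :=
    haveI : Nontrivial (P : Subgroup G) := Finite.one_lt_card_iff_nontrivial.1 (by omega)
    exists_ne 1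
  have hy₀ : (y₀ : G) ≠ 1 := fun e => hy₀1 (Subtype.ext e)
  have ha1 : a oneChar = 1 := by
    have h := (hX _ hχ₁X).2 _ _ (D.ppart_self y₀.2) y₀.2 hy₀
    rw [oneChar_apply] at h
    exact_mod_cast h.symm
  set SX := Finset.univ.filter (· ∈ X) with hSX
  set SY := Finset.univ.filter (· ∈ Y) with hSY
  have hS : Finset.univ.filter (· ∈ principalBlock M G) = SX ∪ SY := by
    ext χ; simp [hSX, hSY, hB]
  have hdisj' : Disjoint SX SY := Finset.disjoint_filter.2 fun χ _ h h' => Set.disjoint_left.1 hdisj h h'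
  have hfX : ∀ F : IrrCharacter G → ℤ, ∑ᶠ χ ∈ X, F χ = ∑ χ ∈ SX, F χ := fun F => by
    rw [finsum_mem_eq_toFinset_sum]; exact Finset.sum_congr (by ext; simp [hSX]) fun _ _ => rfl
  have hfXc : ∀ F : IrrCharacter G → ℂ, ∑ᶠ χ ∈ X, F χ = ∑ χ ∈ SX, F χ := fun F => by
    rw [finsum_mem_eq_toFinset_sum]; exact Finset.sum_congr (by ext; simp [hSX]) fun _ _ => rfl
  have hfY : ∀ F : IrrCharacter G → ℂ, ∑ᶠ χ ∈ Y, F χ = ∑ χ ∈ SY, F χ := fun F => by
    rw [finsum_mem_eq_toFinset_sum]; exact Finset.sum_congr (by ext; simp [hSY]) fun _ _ => rfl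
  have hSYc : SY.card = r := by
    rw [← hYc, Nat.card_eq_fintype_card, Fintype.card_subtype]
  obtain ⟨η₀, hη₀⟩ : ∃ η, η ∈ Y := by
    obtain ⟨η, hη⟩ := Finset.card_pos.1 (show 0 < SY.card by omega)
    exact ⟨η, (Finset.mem_filter.1 hη).2⟩
  have hcol : ∀ y ∈ (P : Subgroup G), y ≠ 1 → ∑ η ∈ SY, (η : G → ℂ) y = (r : ℂ) * d - δ := by
    intro y hy hy1
    have h := D.col_orth hone hy hy1
    rw [hS, Finset.sum_union hdisj'] at h
    have hr := hreg η₀ hη₀ 1 hone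
    rw [hfXc] at hr
    rw [Finset.sum_congr rfl (fun χ hχ => by
        rw [(hX χ (Finset.mem_filter.1 hχ).2).2 y y (D.ppart_self hy) hy hy1]) (s₁ := SX),
      Finset.sum_congr rfl (fun η hη => by rw [heq η (Finset.mem_filter.1 hη).2 η₀ hη₀ 1 hone]) (s₁ := SY),
      ← Finset.sum_mul] at h
    exact mul_right_cancel₀ (apply_one_ne_zero η₀.2) (by linear_combination h - hr)
  have hrZ : ((Nat.card P : ℤ) - 1) / ((3 : ℕ) : ℤ) = (r : ℤ) := by
    have h0 : 0 < Nat.card P := Nat.card_pos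
    omega
  rw [hfX, hrZ] at hnorm
  norm_num at hnorm
  have ha2 : ∀ χ ∈ SX, (1 : ℤ) ≤ a χ ^ 2 := fun χ hχ =>
    Int.add_one_le_iff.2 (lt_of_le_of_ne (sq_nonneg _)
      (fun e => (hX χ (Finset.mem_filter.1 hχ).2).1 (by simpa using e.symm)))
  have hmem1 : oneChar ∈ SX := Finset.mem_filter.2 ⟨Finset.mem_univ _, hχ₁X⟩
  have hsum1 : 1 ≤ ∑ χ ∈ SX, a χ ^ 2 := by
    calc (1 : ℤ) = a oneChar ^ 2 := by rw [ha1]; norm_num
      _ ≤ _ := Finset.single_le_sum (fun χ _ => sq_nonneg (a χ)) hmem1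
  have hcases : (d = 0 ∧ ∑ χ ∈ SX, a χ ^ 2 = 3) ∨ (d = δ ∧ r = 2 ∧ ∑ χ ∈ SX, a χ ^ 2 = 3) := by
    rcases eq_or_ne d 0 with hd | hd
    · refine Or.inl ⟨hd, ?_⟩
      rcases hδ with h | h <;> rw [hd, h] at hnorm <;> linarith
    have hd1 : 1 ≤ d ^ 2 := Int.add_one_le_iff.2 (lt_of_le_of_ne (sq_nonneg _) (fun e => hd (by simpa using e.symm)))
    have hδ2 : δ ^ 2 = 1 := by rcases hδ with h | h <;> rw [h] <;> norm_num
    have hr4 : r ≤ 4 := by
      have : ((r : ℤ) - 1) * 1 ≤ ((r : ℤ) - 1) * d ^ 2 := mul_le_mul_of_nonneg_left hd1 (by omega)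
      nlinarith [sq_nonneg (d - δ)]
    have hdd : d = δ := by
      by_contra hne
      have h1 : 1 ≤ (d - δ) ^ 2 := Int.add_one_le_iff.2 (lt_of_le_of_ne (sq_nonneg _)
        (fun e => hne (sub_eq_zero.1 (by simpa using e.symm))))
      have hb : -1 ≤ d ∧ d ≤ 1 := by
        have hle : (1 : ℤ) * d ^ 2 ≤ ((r : ℤ) - 1) * d ^ 2 := mul_le_mul_of_nonneg_right (by omega) (sq_nonneg d)
        constructor <;> nlinarith
      have hde : d = -δ := by rcases hδ with h | h <;> omega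
      rw [hde, show (-δ - δ) ^ 2 = 4 * δ ^ 2 by ring, neg_sq, hδ2] at hnorm
      omega
    rw [hdd, sub_self, hδ2, mul_one] at hnorm
    obtain ⟨k, hk⟩ := D.card_pow
    interval_cases hr : r
    · exact Or.inr ⟨hdd, rfl, by norm_num at hnorm; linarith⟩
    · exfalso
      have h10 : Nat.card P = 10 := by omega
      rw [h10] at hk
      have hk0 : k ≠ 0 := fun e => by rw [e, pow_zero] at hk; omega
      have hpd : p ∣ 10 := hk ▸ dvd_pow_self p hk0
      have hle := Nat.le_of_dvd (by norm_num) hpd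
      have hk' : p ^ k = 10 := hk.symm
      have hk10 : k < 10 := hk' ▸ Nat.lt_pow_self hp.one_lt
      interval_cases p <;> interval_cases k <;> first | omega | (norm_num at hk'; done) | exact absurd hp (by norm_num)
    · exfalso
      have hX1 : ∑ χ ∈ SX.erase oneChar, a χ ^ 2 = 0 := by
        rw [← Finset.sum_erase_add _ _ hmem1, ha1] at hnorm
        norm_num at hnorm
        linarith
      have hempty : SX.erase oneChar = ∅ := by
        by_contra hne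
        obtain ⟨χ, hχ⟩ := Finset.nonempty_iff_ne_empty.2 hne
        have := Finset.single_le_sum (fun x _ => sq_nonneg (a x)) hχ
        have := ha2 χ (Finset.mem_of_mem_erase hχ)
        linarith
      have hr := hreg η₀ hη₀ 1 hone
      rw [hfXc, ← Finset.sum_erase_add _ _ hmem1, hempty, Finset.sum_empty, ha1, hdd,
        oneChar_apply, apply_one (isCharacter_of_irr η₀.2)] at hr
      have hint : ((4 * δ - δ) * (charDegree (η₀ : G → ℂ) : ℤ) + 1 : ℤ) = 0 := by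
        have : ((((4 * δ - δ) * (charDegree (η₀ : G → ℂ) : ℤ) + 1 : ℤ)) : ℂ) = ((0 : ℤ) : ℂ) := by
          push_cast; linear_combination hr
        exact_mod_cast this
      rcases hδ with h | h <;> rw [h] at hint <;> omega
  have hsumX : ∑ χ ∈ SX, a χ ^ 2 = 3 := by rcases hcases with ⟨-, h⟩ | ⟨-, -, h⟩ <;> exact h
  obtain ⟨χ₂, χ₃, h12, h13, h23, hset, hχ2, hχ3⟩ :=
    three_signs (fun χ hχ => (hX χ (Finset.mem_filter.1 hχ).2).1) hmem1 ha1 hsumX
  have hXeq : X = {oneChar, χ₂, χ₃} := by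
    ext χ
    have := congrArg (fun S : Finset (IrrCharacter G) => χ ∈ S) hset
    simpa [hSX] using this
  subst hXeq
  have hregX : ∀ η ∈ Y, ∀ g : G, ¬ p ∣ orderOf g → ((r : ℂ) * d - δ) * (η : G → ℂ) g +
      (1 + (a χ₂ : ℂ) * (χ₂ : G → ℂ) g + (a χ₃ : ℂ) * (χ₃ : G → ℂ) g) = 0 := by
    intro η hη g hg
    have h := hreg η hη g hg
    rw [hfXc, show SX = {oneChar, χ₂, χ₃} from hset, Finset.sum_insert (by simp [h12, h13]), Finset.sum_pair h23, ha1, oneChar_apply,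
      Int.cast_one, one_mul] at h
    linear_combination h
  rcases hcases with ⟨hd, -⟩ | ⟨hd, hr, -⟩
  · refine ⟨χ₂, χ₃, Y, a, δ, ζ, h12, h13, h23, hB, hdisj, hYc, ha1, hχ2, hχ3, hδ, fun χ hχ => (hX χ hχ).2,
      hζY, hsurj, hconst, ?_, ?_, ?_, heq⟩
    · intro ψ hψ z y hz hy
      rw [hval ψ hψ z y hz hy, hd, Int.cast_zero, zero_add]
      rfl
    · intro y hy hy1
      rw [hfY, hcol y hy hy1, hd]; simp
    · intro η hη g hg
      have h := hregX η hη g hg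
      rw [hd, Int.cast_zero, mul_zero, zero_sub] at h
      linear_combination h
  · -- relabel the two members of `Y`
    have hSY2 : SY.card = 2 := hSYc.trans hr
    obtain ⟨η₁, η₂, h12', hSYeq⟩ := Finset.card_eq_two.1 hSY2
    have hYmem : ∀ η, η ∈ Y ↔ η = η₁ ∨ η = η₂ := fun η => by
      have := congrArg (fun S : Finset (IrrCharacter G) => η ∈ S) hSYeq
      simpa [hSY] using this
    set sw : IrrCharacter G → IrrCharacter G := fun η => if η = η₁ then η₂ else η₁ with hsw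
    have hswY : ∀ η, sw η ∈ Y := fun η => (hYmem _).2 (by by_cases h : η = η₁ <;> simp [hsw, h])
    have hswsum : ∀ η ∈ Y, ∀ g : G, (η : G → ℂ) g + (sw η : G → ℂ) g = (η₁ : G → ℂ) g + (η₂ : G → ℂ) g := by
      intro η hη g
      rcases (hYmem η).1 hη with rfl | rfl
      · simp [hsw]
      · simp [hsw, h12'.symm, add_comm]
    refine ⟨χ₂, χ₃, Y, a, -δ, fun ψ => sw (ζ ψ), h12, h13, h23, hB, hdisj, hYc, ha1, hχ2, hχ3,
      by rcases hδ with h | h <;> simp [h], fun χ hχ => (hX χ hχ).2, fun ψ _ => hswY _, ?_, ?_, ?_, ?_, ?_, heq⟩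
    · intro η hη
      obtain ⟨ψ, hψ, he⟩ := hsurj (sw η) (hswY η)
      refine ⟨ψ, hψ, ?_⟩
      show sw (ζ ψ) = η
      rw [he]
      rcases (hYmem η).1 hη with rfl | rfl <;> simp [hsw, h12'.symm]
    · intro ψ ψ' hψ hR
      show sw (ζ ψ') = sw (ζ ψ)
      rw [hconst ψ ψ' hψ hR]
    · intro ψ hψ z y hz hy
      show (sw (ζ ψ) : G → ℂ) z = _
      obtain ⟨φ, hφ, hφe⟩ := hsurj (sw (ζ ψ)) (hswY _)
      have hzy : (sw (ζ ψ) : G → ℂ) z = (sw (ζ ψ) : G → ℂ) (y : G) := by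
        rw [← hφe, hval φ hφ z y hz hy, hval φ hφ y y (D.ppart_self y.2) hy]
      have h := hswsum (ζ ψ) (hζY ψ hψ) (y : G)
      have h' := hcol y y.2 hy
      rw [hSYeq, Finset.sum_pair h12', hr, hd] at h'
      rw [h', hval ψ hψ y y (D.ppart_self y.2) hy, hd] at h
      rw [hzy]
      push_cast at h ⊢
      simp only [Setup.Rel]
      linear_combination h
    · intro y hy hy1
      rw [hfY, hcol y hy hy1, hr, hd]; push_cast; ring
    · intro η hη g hg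
      have h := hregX η hη g hg
      rw [hr, hd] at h
      push_cast at h ⊢
      linear_combination h

end CfsgLib.Blocks.FpfExc
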